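import Cfsg.Agent.Chars.Basic
import Cfsg.Agent.Chars.GaloisHom.Basic
import Cfsg.Agent.Chars.FrobSchur.Basic
import Cfsg.Agent.Chars.Induced.Ito
import Mathlib.GroupTheory.Sylow
import Mathlib.GroupTheory.Perm.Cycle.Type
import Mathlib.RingTheory.ZMod.UnitsCyclic

/-!
# Blichfeldt's theorem: abelian Hall subgroups for the primes greater than `n + 1`
-/

set_option autoImplicit false

namespace CfsgLib.LinearGroup

open Cfsg CfsgLib.Chars
open scoped ComplexConjugate commutatorElement

universe u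

/-- All prime divisors of `m` exceed `n + 1`. -/
def LargeNum (n m : ℕ) : Prop := ∀ q : ℕ, q.Prime → q ∣ m → n + 1 < q

/-- No prime divisor of `m` exceeds `n + 1`. -/
def SmallNum (n m : ℕ) : Prop := ∀ q : ℕ, q.Prime → q ∣ m → q ≤ n + 1

theorem SmallNum.mono {n n' m : ℕ} (h : SmallNum n' m) (hn : n' ≤ n) : SmallNum n m :=
  fun q hq hd => (h q hq hd).trans (by omega)

theorem SmallNum.mul {n a b : ℕ} (ha : SmallNum n a) (hb : SmallNum n b) : SmallNum n (a * b) :=
  fun q hq hd => (hq.dvd_mul.1 hd).elim (ha q hq) (hb q hq)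

theorem LargeNum.coprime {n a b : ℕ} (ha : LargeNum n a) (hb : SmallNum n b) : a.Coprime b :=
  Nat.coprime_of_dvd fun q hq hqa hqb => absurd (hb q hq hqb) (not_le.2 (ha q hq hqa))

theorem LargeNum.of_dvd {n a b : ℕ} (h : LargeNum n b) (hd : a ∣ b) : LargeNum n a :=
  fun q hq hqa => h q hq (hqa.trans hd)

/-- An abelian Hall subgroup for the primes greater than `n + 1`. -/
def HallAb (G : Type u) [Group G] (n : ℕ) : Prop :=
  ∃ A : Subgroup G, (∀ x ∈ A, ∀ y ∈ A, x * y = y * x) ∧ LargeNum n (Nat.card A) ∧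
    SmallNum n A.index

variable {G : Type u} [Group G] [Finite G]

/-- From an abelian subgroup of small index one extracts the Hall subgroup. -/
theorem HallAb.of_abelian {n : ℕ} (A : Subgroup G) (hA : ∀ x ∈ A, ∀ y ∈ A, x * y = y * x)
    (hi : SmallNum n A.index) : HallAb G n := by
  let K : Subgroup G :=
    { carrier := {a | a ∈ A ∧ LargeNum n (orderOf a)}
      one_mem' := ⟨A.one_mem, fun q hq hd => by
        rw [orderOf_one] at hd; exact absurd hd hq.not_dvd_one⟩
      mul_mem' := fun {a b} ha hb => ⟨A.mul_mem ha.1 hb.1, fun q hq hd => by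
        have h := hd.trans (Commute.orderOf_mul_dvd_mul_orderOf (hA a ha.1 b hb.1))
        exact (hq.dvd_mul.1 h).elim (ha.2 q hq) (hb.2 q hq)⟩
      inv_mem' := fun {a} ha => ⟨A.inv_mem ha.1, by rw [orderOf_inv]; exact ha.2⟩ }
  have hKA : K ≤ A := fun a ha => ha.1
  refine ⟨K, fun x hx y hy => hA x hx.1 y hy.1, fun q hq hd => ?_, ?_⟩
  · have : Fact q.Prime := ⟨hq⟩
    obtain ⟨⟨a, ha⟩, hao⟩ := exists_prime_orderOf_dvd_card' q hd
    refine ha.2 q hq ?_
    rw [← Subgroup.orderOf_mk a ha, hao]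
  · rw [← Subgroup.relIndex_mul_index hKA]
    refine SmallNum.mul (fun q hq hd => ?_) hi
    by_contra hlarge
    push Not at hlarge
    have : Fact q.Prime := ⟨hq⟩
    have : (K.subgroupOf A).Normal := ⟨fun x hx g => by
      have e : g * x * g⁻¹ = x := by
        rw [Subtype.ext (show ((g * x : A) : G) = ((x * g : A) : G) from hA g g.2 x x.2),
          mul_inv_cancel_right]
      rwa [e]⟩
    rw [Subgroup.relIndex, Subgroup.index_eq_card] at hd
    obtain ⟨c, hc⟩ := exists_prime_orderOf_dvd_card' q hd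
    obtain ⟨a, rfl⟩ := QuotientGroup.mk_surjective c
    obtain ⟨e, m, hm, hem⟩ := Nat.exists_eq_pow_mul_and_not_dvd (orderOf_pos (a : G)).ne' q hq.ne_one
    have h1 : (a : G) ^ m ∈ K := by
      refine ⟨A.pow_mem a.2 m, fun r hr hrd => ?_⟩
      have h2 : orderOf ((a : G) ^ m) ∣ q ^ e :=
        orderOf_dvd_of_pow_eq_one (by rw [← pow_mul, mul_comm, ← hem, pow_orderOf_eq_one])
      rw [(Nat.prime_dvd_prime_iff_eq hr hq).1 (hr.dvd_of_dvd_pow (hrd.trans h2))]
      exact hlarge
    have h2 : (a : A ⧸ K.subgroupOf A) ^ m = 1 := by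
      rw [← QuotientGroup.mk_pow, QuotientGroup.eq_one_iff, Subgroup.mem_subgroupOf]
      exact h1
    exact hm (hc ▸ orderOf_dvd_of_pow_eq_one h2)

/-- A Hall subgroup of a subgroup of small index is one of the group. -/
theorem HallAb.of_subgroup {n : ℕ} (H : Subgroup G) (hH : SmallNum n H.index) (h : HallAb H n) :
    HallAb G n := by
  obtain ⟨A, hA, hl, hs⟩ := h
  refine ⟨A.map H.subtype, ?_, ?_, ?_⟩
  · rintro _ ⟨x, hx, rfl⟩ _ ⟨y, hy, rfl⟩
    exact congrArg Subtype.val (hA x hx y hy)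
  · rwa [Subgroup.card_map_of_injective H.subtype_injective]
  · rw [Subgroup.index_map_subtype]
    exact hs.mul hH

theorem HallAb.mono {n n' : ℕ} (h : HallAb G n') (hn : n' ≤ n) : HallAb G n := by
  obtain ⟨A, hA, -, hs⟩ := h
  exact HallAb.of_abelian A hA (hs.mono hn)

/-- Commutators of the preimage of an abelian subgroup of a quotient lie in the kernel. -/
theorem HallAb.exists_preimage {n d : ℕ} (N : Subgroup G) [N.Normal] (h : HallAb (G ⧸ N) d)
    (hd : d ≤ n) :
    ∃ H : Subgroup G, SmallNum n H.index ∧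
      (H = ⊤ → LargeNum d N.index ∧ ∀ x y : G, ⁅x, y⁆ ∈ N) := by
  obtain ⟨A, hA, hl, hs⟩ := h
  refine ⟨A.comap (QuotientGroup.mk' N), ?_, fun htop => ?_⟩
  · rw [Subgroup.index_comap_of_surjective A (QuotientGroup.mk'_surjective N)]
    exact hs.mono hd
  · have hAtop : A = ⊤ := by
      apply Subgroup.comap_injective (QuotientGroup.mk'_surjective N)
      rw [htop, Subgroup.comap_top]
    subst hAtop
    refine ⟨by rw [Subgroup.index_eq_card]; rwa [Subgroup.card_top] at hl, fun x y => ?_⟩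
    rw [← QuotientGroup.eq_one_iff, ← QuotientGroup.mk'_apply, map_commutatorElement,
      commutatorElement_eq_one_iff_mul_comm]
    exact hA _ trivial _ trivial

/-- A `p`-group with a faithful character of degree less than `p` is abelian. -/
theorem isMulComm_of_degree_lt {P : Type u} [Group P] [Finite P] {p n : ℕ} (hp : p.Prime)
    (hP : IsPGroup p P) {χ : P → ℂ} (hχ : IsCharacter P χ)
    (hf : ∀ g : P, χ g = χ 1 → g = 1) (hn : χ 1 = n) (hnp : n < p) (a b : P) :
    a * b = b * a := by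
  classical
  have : Fintype P := Fintype.ofFinite P
  have : Fact p.Prime := ⟨hp⟩
  obtain ⟨c, hc, -⟩ := exists_nat_coeff hχ
  rw [← commutatorElement_eq_one_iff_mul_comm]
  apply hf
  rw [hc, Finset.sum_apply, Finset.sum_apply]
  refine Finset.sum_congr rfl fun ψ _ => ?_
  rcases Nat.eq_zero_or_pos (c ψ) with h0 | h0
  · simp [h0]
  have h1 : (ψ : P → ℂ) 1 = 1 := by
    have hsum : (n : ℂ) = ((∑ φ : IrrCharacter P, c φ * charDegree (φ : P → ℂ) : ℕ) : ℂ) := by
      rw [← hn, hc]
      push_cast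
      simp [coe_charDegree]
    rw [Nat.cast_inj] at hsum
    have hle : charDegree (ψ : P → ℂ) ≤ n := by
      rw [hsum]
      exact (Nat.le_mul_of_pos_left _ h0).trans
        (Finset.single_le_sum (f := fun φ : IrrCharacter P => c φ * charDegree (φ : P → ℂ))
          (fun _ _ => Nat.zero_le _) (Finset.mem_univ ψ))
    obtain ⟨m, hm⟩ := IsPGroup.iff_card.1 hP
    obtain ⟨i, -, hi⟩ := (Nat.dvd_prime_pow hp).1 (hm ▸ charDegree_dvd_card ψ)
    rcases Nat.eq_zero_or_pos i with rfl | hi0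
    · exact (charDegree_eq_one_iff ψ).1 (by rw [hi, pow_zero])
    · exfalso
      have := Nat.le_self_pow hi0.ne' p
      omega
  obtain ⟨l, rfl⟩ := exists_linChar_eq ψ h1
  rw [Pi.smul_apply, Pi.smul_apply, linChar_apply, linChar_apply, map_one,
    map_commutatorElement, commutatorElement_eq_one_iff_mul_comm.2 (mul_comm _ _)]

/-- A faithful character of degree less than `p - 1` is moved by some Galois automorphism fixing
its values at the elements of order prime to `p`. -/
theorem exists_galois_twist {n p : ℕ} (hp : p.Prime) (hpd : p ∣ Nat.card G)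
    (χ : IrrCharacter G) (hf : ∀ g : G, (χ : G → ℂ) g = (χ : G → ℂ) 1 → g = 1)
    (hn : (χ : G → ℂ) 1 = n) (hnp : n + 1 < p) :
    ∃ χ' : IrrCharacter G, χ' ≠ χ ∧ ∀ g : G, ¬ p ∣ orderOf g →
      (χ' : G → ℂ) g = (χ : G → ℂ) g := by
  classical
  have : Fact p.Prime := ⟨hp⟩
  obtain ⟨a, r, hr, hm⟩ := Nat.exists_eq_pow_mul_and_not_dvd (Nat.card_pos (α := G)).ne' p hp.ne_one
  obtain ⟨u, hu⟩ := IsCyclic.exists_generator (α := (ZMod p)ˣ)
  have hcop : (p ^ a).Coprime r := ((hp.coprime_iff_not_dvd).2 hr).pow_left a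
  have ha0 : a ≠ 0 := by
    rintro rfl
    rw [pow_zero, one_mul] at hm
    exact hr (hm ▸ hpd)
  obtain ⟨k, hk1, hk2⟩ := Nat.chineseRemainder hcop (u : ZMod p).val 1
  have hkp : (k : ZMod p) = u := by
    rw [(ZMod.natCast_eq_natCast_iff k _ p).2 (hk1.of_dvd (dvd_pow_self p ha0))]
    exact ZMod.natCast_zmod_val _
  have hk : k.Coprime (Nat.card G) := by
    rw [hm]
    refine Nat.Coprime.mul_right (Nat.Coprime.pow_right a ?_) ?_
    · refine ((hp.coprime_iff_not_dvd).2 fun h => u.ne_zero ?_).symm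
      rw [← hkp, ZMod.natCast_eq_zero_iff]
      exact h
    · show Nat.gcd k r = 1
      rw [hk2.gcd_eq, Nat.gcd_one_left]
  obtain ⟨σ, hσ⟩ := GaloisHom.exists_ringHom_char (Nat.card_pos (α := G)) hk
  have hσ' : ∀ g : G, σ ((χ : G → ℂ) g) = (χ : G → ℂ) (g ^ k) := fun g =>
    hσ (isCharacter_coe χ) g (orderOf_dvd_natCard g)
  refine ⟨⟨fun g => σ ((χ : G → ℂ) g), isIrrCharacter_ringHom χ.2 σ⟩, fun he => ?_, fun g hg => ?_⟩
  · have hfix : ∀ y : G, (χ : G → ℂ) (y ^ k) = (χ : G → ℂ) y := fun y => by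
      rw [← hσ']
      exact congrFun (congrArg Subtype.val he) y
    have hiter : ∀ (i : ℕ) (y : G), (χ : G → ℂ) (y ^ (k ^ i)) = (χ : G → ℂ) y := by
      intro i y
      induction i with
      | zero => rw [pow_zero, pow_one]
      | succ i ih => rw [pow_succ, pow_mul, hfix, ih]
    obtain ⟨x, hx⟩ := exists_prime_orderOf_dvd_card' p hpd
    have : Fintype (Subgroup.zpowers x) := Fintype.ofFinite _
    set C := Subgroup.zpowers x
    have hCp : Nat.card C = p := by rw [Nat.card_zpowers, hx]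
    set v := (χ : G → ℂ) x
    have hval : ∀ c : C, c ≠ 1 → (χ : G → ℂ) c = v := by
      rintro ⟨c, hc⟩ hne
      obtain ⟨j, rfl⟩ := mem_powers_iff_mem_zpowers.2 hc
      have hj : (j : ZMod p) ≠ 0 := by
        rw [Ne, ZMod.natCast_eq_zero_iff]
        intro h
        apply hne
        apply Subtype.ext
        exact orderOf_dvd_iff_pow_eq_one.1 (hx ▸ h)
      obtain ⟨i, hi⟩ := mem_powers_iff_mem_zpowers.2 (hu (Units.mk0 _ hj))
      show (χ : G → ℂ) (x ^ j) = v
      have e : x ^ j = x ^ (k ^ i) := by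
        rw [pow_eq_pow_iff_modEq, hx, ← ZMod.natCast_eq_natCast_iff, Nat.cast_pow, hkp,
          ← Units.val_pow_eq_pow_val]
        exact (congrArg Units.val hi).symm
      rw [e, hiter]
    have hres : IsCharacter C (fun c : C => (χ : G → ℂ) c) :=
      isCharacter_restrict (isCharacter_coe χ) C
    have hinner : ∀ ψ : IrrCharacter C, classInner (fun c : C => (χ : G → ℂ) c) (ψ : C → ℂ) =
        v * classInner (fun _ : C => (1 : ℂ)) (ψ : C → ℂ) +
          (p : ℂ)⁻¹ * ((n - v) * conj ((ψ : C → ℂ) 1)) := by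
      intro ψ
      have e : ∀ c : C, (χ : G → ℂ) c = v + if c = 1 then (n - v) else 0 := by
        intro c
        by_cases hc : c = 1
        · rw [if_pos hc, hc, add_sub_cancel]; exact hn
        · rw [if_neg hc, add_zero, hval c hc]
      simp only [classInner, e, hCp, add_mul, ite_mul, zero_mul, Finset.sum_add_distrib,
        ← Finset.mul_sum, one_mul, Finset.sum_ite_eq', Finset.mem_univ, if_true]
      ring
    have hone : ∀ ψ : IrrCharacter C, (ψ : C → ℂ) 1 = 1 := fun ψ =>
      map_one_eq_one_of_isMulCommutative ψ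
    obtain ⟨ψ, hψ⟩ : ∃ ψ : IrrCharacter C, ψ ≠ oneChar C := by
      by_contra h
      push Not at h
      have h1 : (⟨x, Subgroup.mem_zpowers x⟩ : C) = 1 := eq_one_of_forall_eq fun ψ => by
        rw [h ψ, oneChar_apply, oneChar_apply]
      have h2 : x = 1 := congrArg Subtype.val h1
      rw [h2, orderOf_one] at hx
      exact hp.ne_one hx.symm
    obtain ⟨t, ht⟩ := exists_nat_classInner hres (oneChar C)
    obtain ⟨w, hw⟩ := exists_nat_classInner hres ψ
    rw [hinner, ← oneChar_coe, classInner_self, hone, map_one, mul_one, mul_one] at ht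
    rw [hinner, ← oneChar_coe, classInner_of_ne (Ne.symm hψ), hone, map_one, mul_zero, mul_one,
      zero_add] at hw
    have hp0 : (p : ℂ) ≠ 0 := Nat.cast_ne_zero.2 hp.ne_zero
    have e1 : (n : ℂ) = t + ((p - 1 : ℕ) : ℂ) * w := by
      rw [Nat.cast_sub hp.pos, Nat.cast_one, ← ht, ← hw]
      field_simp
      ring
    have e2 : n = t + (p - 1) * w := by exact_mod_cast e1
    rcases Nat.eq_zero_or_pos w with rfl | hw0
    · rw [Nat.cast_zero, mul_eq_zero, inv_eq_zero, or_iff_right hp0, sub_eq_zero] at hw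
      have h3 : x = 1 := hf x (by rw [hn]; exact hw.symm)
      rw [h3, orderOf_one] at hx
      exact hp.ne_one hx.symm
    · have := Nat.le_mul_of_pos_right (p - 1) hw0
      omega
  · show σ ((χ : G → ℂ) g) = (χ : G → ℂ) g
    have hgr : orderOf g ∣ r := by
      have h1 : (orderOf g).Coprime (p ^ a) := ((hp.coprime_iff_not_dvd).2 hg).symm.pow_right a
      exact h1.dvd_of_dvd_mul_left (hm ▸ orderOf_dvd_natCard g)
    rw [hσ']
    refine congrArg _ ?_
    conv_rhs => rw [← pow_one g]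
    exact pow_eq_pow_iff_modEq.2 (hk2.of_dvd hgr)

/-- Two large primes cannot fail to divide the order of some element together. -/
theorem exists_orderOf_eq_mul {n p q : ℕ} (hp : p.Prime) (hq : q.Prime) (hne : p ≠ q)
    (hpd : p ∣ Nat.card G) (hqd : q ∣ Nat.card G)
    (χ : IrrCharacter G) (hf : ∀ g : G, (χ : G → ℂ) g = (χ : G → ℂ) 1 → g = 1)
    (hn : (χ : G → ℂ) 1 = n) (hnp : n + 1 < p) (hnq : n + 1 < q) :
    ∃ g : G, orderOf g = p * q := by
  classical
  have : Fintype G := Fintype.ofFinite G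
  by_contra hno
  push Not at hno
  obtain ⟨χ₁, h1ne, h1⟩ := exists_galois_twist hp hpd χ hf hn hnp
  obtain ⟨χ₂, h2ne, h2⟩ := exists_galois_twist hq hqd χ hf hn hnq
  have hz : classInner ((χ : G → ℂ) - (χ₁ : G → ℂ)) ((χ : G → ℂ) - (χ₂ : G → ℂ)) = 0 := by
    rw [classInner, Finset.sum_eq_zero, mul_zero]
    intro g _
    by_cases hgp : p ∣ orderOf g
    · by_cases hgq : q ∣ orderOf g
      · exfalso
        have hd : p * q ∣ orderOf g := ((Nat.coprime_primes hp hq).2 hne).mul_dvd_of_dvd_of_dvd hgp hgq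
        exact hno _ (orderOf_pow_orderOf_div (orderOf_pos g).ne' hd)
      · rw [Pi.sub_apply (f := (χ : G → ℂ)) (g := (χ₂ : G → ℂ)), h2 g hgq, sub_self, map_zero,
          mul_zero]
    · rw [Pi.sub_apply, h1 g hgp, sub_self, zero_mul]
  have hsub : ∀ φ : IrrCharacter G, classInner (φ : G → ℂ) ((χ : G → ℂ) - (χ₂ : G → ℂ)) =
      (if φ = χ then 1 else 0) - (if φ = χ₂ then 1 else 0) := fun φ => by
    rw [← classInner_irr, ← classInner_irr]
    simp [classInner, mul_sub, Finset.sum_sub_distrib]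
  rw [classInner_sub_left, hsub, hsub, if_pos rfl, if_neg (Ne.symm h2ne), if_neg h1ne] at hz
  split_ifs at hz <;> norm_num at hz

end CfsgLib.LinearGroup
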