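import Cfsg.Agent.Chars.Basic
import Mathlib.Analysis.CStarAlgebra.Basic
import Mathlib.Analysis.SpecialFunctions.Complex.Log
import Mathlib.Analysis.SpecificLimits.Basic

/-!
# Frobenius' lemma on unitary elements close to scalars, and spectral idempotents
-/

set_option autoImplicit false

namespace CfsgLib.LinearGroup

open Cfsg CfsgLib.Chars
open scoped ComplexConjugate commutatorElement

variable {G : Type*} [Group G] {R : Type*} [NormedRing R] [StarRing R] [CStarRing R]
  [NormedAlgebra ℂ R] [StarModule ℂ R]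

/-- A unitary representation in a C*-algebra. -/
structure UnitaryHom (Y : G →* R) : Prop where
  star_eq : ∀ g, star (Y g) = Y g⁻¹

variable {Y : G →* R}

theorem UnitaryHom.norm_mul_left (hY : UnitaryHom Y) (g : G) (x : R) : ‖Y g * x‖ = ‖x‖ := by
  have e : ‖Y g * x‖ * ‖Y g * x‖ = ‖x‖ * ‖x‖ := by
    rw [← CStarRing.norm_star_mul_self, star_mul, hY.star_eq, mul_assoc, ← mul_assoc (Y g⁻¹),
      ← map_mul, inv_mul_cancel, map_one, one_mul, CStarRing.norm_star_mul_self]
  nlinarith [norm_nonneg (Y g * x), norm_nonneg x]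

theorem UnitaryHom.norm_mul_right (hY : UnitaryHom Y) (g : G) (x : R) : ‖x * Y g‖ = ‖x‖ := by
  rw [← norm_star, star_mul, hY.star_eq, hY.norm_mul_left, norm_star]

theorem UnitaryHom.norm_conj (hY : UnitaryHom Y) (g : G) (x : R) :
    ‖Y g * x * Y g⁻¹‖ = ‖x‖ := by
  rw [hY.norm_mul_right, hY.norm_mul_left]

theorem UnitaryHom.norm_le_one [Nontrivial R] (hY : UnitaryHom Y) (g : G) : ‖Y g‖ ≤ 1 := by
  have := hY.norm_mul_left g 1
  rw [mul_one, CStarRing.norm_one] at this
  exact this.le

/-- The contraction step. -/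
theorem UnitaryHom.norm_commutator_sub_one_le (hY : UnitaryHom Y) (a b : G) (c : ℂ) :
    ‖Y ⁅a, b⁆ - 1‖ ≤ 2 * ‖Y a - c • 1‖ * ‖Y b - 1‖ := by
  have e : Y ⁅a, b⁆ - 1 =
      ((Y a - c • 1) * (Y b - 1) - (Y b - 1) * (Y a - c • 1)) * Y (a⁻¹ * b⁻¹) := by
    have h1 : (Y a - c • 1) * (Y b - 1) - (Y b - 1) * (Y a - c • 1) = Y a * Y b - Y b * Y a := by
      simp only [sub_mul, mul_sub, smul_mul_assoc, mul_smul_comm, one_mul, mul_one, smul_sub]
      abel
    rw [h1, sub_mul, ← map_mul, ← map_mul, ← map_mul, ← map_mul, commutatorElement_def,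
      show a * b * (a⁻¹ * b⁻¹) = a * b * a⁻¹ * b⁻¹ by group,
      show b * a * (a⁻¹ * b⁻¹) = 1 by group, map_one]
  rw [e, hY.norm_mul_right]
  calc ‖(Y a - c • 1) * (Y b - 1) - (Y b - 1) * (Y a - c • 1)‖
      ≤ ‖(Y a - c • 1) * (Y b - 1)‖ + ‖(Y b - 1) * (Y a - c • 1)‖ := norm_sub_le _ _
    _ ≤ ‖Y a - c • 1‖ * ‖Y b - 1‖ + ‖Y b - 1‖ * ‖Y a - c • 1‖ :=
        add_le_add (norm_mul_le _ _) (norm_mul_le _ _)
    _ = _ := by ring

section Spectral

variable (H : Subgroup G) [Fintype H]

/-- The spectral idempotent of the character `μ` of the abelian subgroup `H`. -/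
noncomputable def proj (Y : G →* R) (μ : IrrCharacter H) : R :=
  (Nat.card H : ℂ)⁻¹ • ∑ h : H, conj ((μ : H → ℂ) h) • Y (h : G)

theorem proj_def (μ : IrrCharacter H) :
    proj H Y μ = (Nat.card H : ℂ)⁻¹ • ∑ h : H, conj ((μ : H → ℂ) h) • Y (h : G) := rfl

variable {H} [IsMulCommutative H]

theorem linear_mul (μ : IrrCharacter H) (a b : H) :
    (μ : H → ℂ) (a * b) = (μ : H → ℂ) a * (μ : H → ℂ) b := by
  obtain ⟨l, rfl⟩ := exists_linChar_eq μ (map_one_eq_one_of_isMulCommutative μ)
  simp

theorem linear_conj_mul_self (μ : IrrCharacter H) (a : H) :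
    conj ((μ : H → ℂ) a) * (μ : H → ℂ) a = 1 := by
  rw [← map_inv_eq_conj (isCharacter_coe μ), ← linear_mul, inv_mul_cancel,
    map_one_eq_one_of_isMulCommutative]

theorem norm_linear (μ : IrrCharacter H) (a : H) : ‖(μ : H → ℂ) a‖ = 1 := by
  have h := congrArg Norm.norm (linear_conj_mul_self μ a)
  rw [norm_mul, Complex.norm_conj, norm_one] at h
  nlinarith [norm_nonneg ((μ : H → ℂ) a)]

theorem mul_proj (μ : IrrCharacter H) (a : H) :
    Y (a : G) * proj H Y μ = (μ : H → ℂ) a • proj H Y μ := by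
  rw [proj_def, mul_smul_comm, smul_comm]
  congr 1
  rw [Finset.mul_sum, Finset.smul_sum]
  refine Fintype.sum_equiv (Equiv.mulLeft a) _ _ fun h => ?_
  rw [Equiv.coe_mulLeft, mul_smul_comm, Subgroup.coe_mul, map_mul Y, linear_mul, map_mul,
    smul_smul, ← mul_assoc, mul_comm ((μ : H → ℂ) a), linear_conj_mul_self, one_mul]

theorem proj_mul (μ : IrrCharacter H) (a : H) :
    proj H Y μ * Y (a : G) = (μ : H → ℂ) a • proj H Y μ := by
  have hc : Commute (Y (a : G)) (proj H Y μ) := by
    rw [proj_def]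
    refine (Commute.sum_right _ _ _ fun h _ => ?_).smul_right _
    refine Commute.smul_right ?_ _
    refine Commute.map ?_ Y
    exact congrArg Subtype.val (mul_comm' a h)
  rw [← hc.eq, mul_proj]

theorem sum_proj : ∑ μ : IrrCharacter H, proj H Y μ = 1 := by
  classical
  simp only [proj_def]
  rw [← Finset.smul_sum, Finset.sum_comm]
  simp only [← Finset.sum_smul, ← map_sum]
  rw [Finset.sum_eq_single (1 : H)]
  · have h := sum_irr_map_one_mul (1 : H)
    rw [if_pos rfl] at h
    simp only [map_one_eq_one_of_isMulCommutative, one_mul] at h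
    simp only [map_one_eq_one_of_isMulCommutative]
    rw [h, map_natCast, Subgroup.coe_one, map_one, smul_smul, inv_mul_cancel₀ natCard_ne_zero,
      one_smul]
  · intro a _ ha
    have h := sum_irr_map_one_mul a
    rw [if_neg ha] at h
    simp only [map_one_eq_one_of_isMulCommutative, one_mul] at h
    rw [h, map_zero, zero_smul]
  · exact fun h => absurd (Finset.mem_univ _) h

theorem apply_eq_sum_proj (a : H) :
    Y (a : G) = ∑ μ : IrrCharacter H, (μ : H → ℂ) a • proj H Y μ := by
  simp only [← mul_proj]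
  rw [← Finset.mul_sum, sum_proj, mul_one]

theorem star_proj (hY : UnitaryHom Y) (μ : IrrCharacter H) :
    star (proj H Y μ) = proj H Y μ := by
  rw [proj_def, star_smul, star_sum]
  congr 1
  · simp
  refine Fintype.sum_equiv (Equiv.inv H) _ _ fun h => ?_
  rw [Equiv.inv_apply, star_smul, hY.star_eq, map_inv_eq_conj (isCharacter_coe μ), Subgroup.coe_inv]
  simp

open scoped Classical in
theorem proj_mul_proj (μ ν : IrrCharacter H) :
    proj H Y μ * proj H Y ν = if μ = ν then proj H Y ν else 0 := by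
  conv_lhs => rw [proj_def, smul_mul_assoc, Finset.sum_mul]
  simp only [smul_mul_assoc, mul_proj, smul_smul, ← Finset.sum_smul]
  have h : classInner (ν : H → ℂ) (μ : H → ℂ) = if ν = μ then 1 else 0 := classInner_irr ν μ
  rw [classInner] at h
  rw [Finset.sum_congr rfl (fun x _ => mul_comm (conj ((μ : H → ℂ) x)) _), h]
  by_cases e : μ = ν
  · rw [if_pos e, if_pos e.symm, one_smul]
  · rw [if_neg e, if_neg (fun e' => e e'.symm), zero_smul]

theorem proj_commute {u : R} (h : ∀ a : H, Commute (Y (a : G)) u) (μ : IrrCharacter H) :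
    Commute (proj H Y μ) u := by
  rw [proj_def]
  exact (Commute.sum_left _ _ _ fun a _ => (h a).smul_left _).smul_left _

theorem norm_proj_le [Nontrivial R] (hY : UnitaryHom Y) (μ : IrrCharacter H) :
    ‖proj H Y μ‖ ≤ 1 := by
  rw [proj_def, norm_smul, norm_inv, Complex.norm_natCast]
  refine inv_mul_le_one_of_le₀ ?_ (Nat.cast_nonneg _)
  refine (norm_sum_le _ _).trans ?_
  calc ∑ h : H, ‖conj ((μ : H → ℂ) h) • Y (h : G)‖ ≤ ∑ _h : H, (1 : ℝ) :=
        Finset.sum_le_sum fun h _ => by
          rw [norm_smul, Complex.norm_conj, norm_linear, one_mul]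
          exact hY.norm_le_one _
    _ = _ := by simp [Nat.card_eq_fintype_card]

/-- The norm of a combination of spectral idempotents is at most the largest coefficient. -/
theorem norm_sum_smul_proj_le [Nontrivial R] (hY : UnitaryHom Y) (z : IrrCharacter H → ℂ) {M : ℝ}
    (hM0 : 0 < M) (hz : ∀ μ, proj H Y μ ≠ 0 → ‖z μ‖ ≤ M) :
    ‖∑ μ : IrrCharacter H, z μ • proj H Y μ‖ ≤ M := by
  classical
  set S : (IrrCharacter H → ℂ) → R := fun w => ∑ μ : IrrCharacter H, w μ • proj H Y μ
  have hmul : ∀ w w', S w * S w' = S (fun μ => w μ * w' μ) := by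
    intro w w'
    simp only [S, Finset.sum_mul, Finset.mul_sum, smul_mul_assoc, mul_smul_comm, proj_mul_proj,
      smul_ite, smul_zero]
    simp [Finset.sum_ite_eq']
    exact Finset.sum_congr rfl fun μ _ => by rw [smul_smul, mul_comm]
  have hstar : ∀ w, star (S w) = S (fun μ => conj (w μ)) := fun w => by
    simp [S, star_sum, star_smul, star_proj hY]
  have key : ∀ m : ℕ, ∀ w, ‖S w‖ ^ (2 ^ m) ≤
      ∑ μ : IrrCharacter H, ‖w μ‖ ^ (2 ^ m) * ‖proj H Y μ‖ := by
    intro m
    induction m with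
    | zero =>
      intro w
      simp only [pow_zero, pow_one]
      exact (norm_sum_le _ _).trans (le_of_eq (Finset.sum_congr rfl fun μ _ => norm_smul _ _))
    | succ m ih =>
      intro w
      rw [pow_succ', pow_mul, sq, ← CStarRing.norm_star_mul_self, hstar, hmul]
      refine (ih _).trans (le_of_eq (Finset.sum_congr rfl fun μ _ => ?_))
      rw [pow_mul, sq, norm_mul, Complex.norm_conj]
  by_contra hlt
  push Not at hlt
  have hr : 1 < ‖S z‖ / M := by rw [lt_div_iff₀ hM0, one_mul]; exact hlt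
  obtain ⟨m, hm⟩ := pow_unbounded_of_one_lt (Fintype.card (IrrCharacter H) : ℝ) hr
  have h1 : ‖S z‖ ^ (2 ^ m) ≤ (Fintype.card (IrrCharacter H) : ℝ) * M ^ (2 ^ m) := by
    refine (key m z).trans ?_
    refine (Finset.sum_le_sum fun μ _ => ?_).trans
      (le_of_eq (by rw [Finset.sum_const, Finset.card_univ, nsmul_eq_mul]))
    by_cases h0 : proj H Y μ = 0
    · rw [h0, norm_zero, mul_zero]; positivity
    · calc ‖z μ‖ ^ (2 ^ m) * ‖proj H Y μ‖ ≤ M ^ (2 ^ m) * 1 := by
            refine mul_le_mul (pow_le_pow_left₀ (norm_nonneg _) (hz μ h0) _) (norm_proj_le hY μ)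
              (norm_nonneg _) (by positivity)
        _ = M ^ (2 ^ m) := mul_one _
  have h2 : (‖S z‖ / M) ^ m ≤ (‖S z‖ / M) ^ (2 ^ m) :=
    pow_le_pow_right₀ hr.le (Nat.lt_two_pow_self).le
  have h3 : (‖S z‖ / M) ^ (2 ^ m) ≤ (Fintype.card (IrrCharacter H) : ℝ) := by
    rw [div_pow, div_le_iff₀ (by positivity)]
    exact h1
  linarith

end Spectral

/-- If `a` commutes with `⁅a, b⁆` and `b` is at distance less than one from the identity, then
`a` and `b` commute in the image. -/
theorem UnitaryHom.commute_of_commute_commutator [Finite G] (hY : UnitaryHom Y) {a b : G}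
    (hb : ‖Y b - 1‖ < 1) (hK : Commute a ⁅a, b⁆) : Commute (Y a) (Y b) := by
  classical
  haveI : Fintype (Subgroup.zpowers a) := Fintype.ofFinite _
  set H := Subgroup.zpowers a
  have hab : Commute a (b * a * b⁻¹) := by
    have e : b * a * b⁻¹ = ⁅a, b⁆⁻¹ * a := by rw [commutatorElement_def]; group
    rw [e]
    exact hK.inv_right.mul_right (Commute.refl a)
  set E : IrrCharacter H → R := proj H Y
  set B := Y b
  set B' := Y b⁻¹
  have hBB : B' * B = 1 := by rw [← map_mul, inv_mul_cancel, map_one]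
  have hcomm : ∀ μ ν, Commute (E μ) (B * E ν * B') := by
    intro μ ν
    refine proj_commute (fun x => ?_) μ
    obtain ⟨i, hi⟩ := x.2
    simp only [E, proj_def, mul_smul_comm, smul_mul_assoc, Finset.mul_sum, Finset.sum_mul]
    refine (Commute.sum_right _ _ _ fun y _ => ?_).smul_right _
    refine Commute.smul_right ?_ _
    obtain ⟨j, hj⟩ := y.2
    rw [← map_mul, ← map_mul]
    refine Commute.map ?_ Y
    rw [← hi, ← hj]
    simp only
    rw [← conj_zpow]
    exact hab.zpow_zpow i j
  have hzero : ∀ μ ν, ν ≠ μ → E ν * B * E μ = 0 := by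
    intro μ ν hne
    set M := E ν * B * E μ with hMdef
    set U := B' * M with hUdef
    have hM : M = B * E μ * B' * (E ν * B) := by
      rw [← mul_assoc (B * E μ * B'), ← (hcomm ν μ).eq, hMdef]
      simp only [mul_assoc, hBB, mul_one]
    have hEU : E μ * U = U := by
      have h : U = E μ * B' * (E ν * B) := by
        rw [hUdef, hM, ← mul_assoc, ← mul_assoc B', ← mul_assoc B', hBB, one_mul]
      conv_rhs => rw [h]
      rw [h]
      simp only [← mul_assoc]
      rw [proj_mul_proj, if_pos rfl]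
    have hBU : B * U = M := by
      rw [hUdef, ← mul_assoc, ← map_mul, mul_inv_cancel, map_one, one_mul]
    have hENM : E ν * M = M := by
      rw [hMdef, ← mul_assoc, ← mul_assoc, proj_mul_proj, if_pos rfl]
    have hz : star U * M = 0 := by
      conv_lhs => rw [← hEU, ← hENM]
      rw [star_mul, star_proj hY, mul_assoc, ← mul_assoc (E μ), proj_mul_proj,
        if_neg (fun e => hne e.symm), zero_mul, mul_zero]
    have h1 : star U * U = -(star U * (B - 1) * U) := by
      rw [mul_sub, sub_mul, mul_assoc, hBU, hz, mul_one, zero_sub, neg_neg]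
    have h2 : ‖U‖ * ‖U‖ ≤ ‖B - 1‖ * (‖U‖ * ‖U‖) := by
      calc ‖U‖ * ‖U‖ = ‖star U * (B - 1) * U‖ := by
            rw [← CStarRing.norm_star_mul_self, h1, norm_neg]
        _ ≤ ‖star U‖ * ‖B - 1‖ * ‖U‖ :=
            (norm_mul_le _ _).trans (mul_le_mul_of_nonneg_right (norm_mul_le _ _) (norm_nonneg _))
        _ = _ := by rw [norm_star]; ring
    have h3 : U = 0 := by
      rw [← norm_eq_zero]
      by_contra h
      have : 0 < ‖U‖ * ‖U‖ := by positivity
      nlinarith
    rw [← hBU, h3, mul_zero]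
  have hEB : ∀ μ, E μ * B = B * E μ := by
    intro μ
    have e1 : B * E μ = E μ * B * E μ := by
      conv_lhs => rw [← one_mul (B * E μ), ← sum_proj (H := H) (Y := Y), Finset.sum_mul]
      rw [Finset.sum_eq_single μ, ← mul_assoc]
      · intro ν _ hν; rw [← mul_assoc]; exact hzero μ ν hν
      · exact fun h => absurd (Finset.mem_univ _) h
    have e2 : E μ * B = E μ * B * E μ := by
      conv_lhs => rw [← mul_one (E μ * B), ← sum_proj (H := H) (Y := Y), Finset.mul_sum]
      rw [Finset.sum_eq_single μ]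
      · intro ν _ hν; exact hzero ν μ hν.symm
      · exact fun h => absurd (Finset.mem_univ _) h
    rw [e2, ← e1]
  rw [show a = ((⟨a, Subgroup.mem_zpowers a⟩ : H) : G) from rfl, apply_eq_sum_proj]
  exact Commute.sum_left _ _ _ fun μ _ => Commute.smul_left (hEB μ) _

/-- Frobenius' lemma. -/
theorem UnitaryHom.commute_of_near [Finite G] (hY : UnitaryHom Y) (hinj : Function.Injective Y)
    {a b : G} {c : ℂ} (ha : ‖Y a - c • 1‖ < 1 / 2) (hb : ‖Y b - 1‖ < 1) : Commute a b := by
  set r : ℝ := 2 * ‖Y a - c • 1‖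
  have hr : r < 1 := by simp only [r]; linarith
  have hr0 : 0 ≤ r := by simp only [r]; positivity
  let C : ℕ → G := fun k => (fun x => ⁅a, x⁆)^[k] b
  have hC0 : C 0 = b := rfl
  have hCs : ∀ k, C (k + 1) = ⁅a, C k⁆ := fun k => Function.iterate_succ_apply' _ k b
  have hbound : ∀ k, ‖Y (C k) - 1‖ ≤ r ^ k * ‖Y b - 1‖ := by
    intro k
    induction k with
    | zero => rw [pow_zero, one_mul, hC0]
    | succ k ih =>
      rw [hCs, pow_succ']
      refine (hY.norm_commutator_sub_one_le a (C k) c).trans ?_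
      rw [mul_assoc r]
      exact mul_le_mul_of_nonneg_left ih hr0
  obtain ⟨k, hk⟩ : ∃ k, C k = 1 := by
    by_contra hne
    push Not at hne
    obtain ⟨g0, hg0, hmin⟩ := Set.exists_min_image {g : G | g ≠ 1} (fun g => ‖Y g - 1‖)
      (Set.toFinite _) ⟨C 0, hne 0⟩
    have hpos : 0 < ‖Y g0 - 1‖ := by
      rw [norm_pos_iff, sub_ne_zero]
      intro e
      exact hg0 (hinj (e.trans (map_one Y).symm))
    obtain ⟨k, hk⟩ := exists_pow_lt_of_lt_one hpos hr
    have h1 := hmin (C k) (hne k)
    have h2 : r ^ k * ‖Y b - 1‖ ≤ r ^ k := mul_le_of_le_one_right (pow_nonneg hr0 k) hb.le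
    have h3 := hbound k
    linarith
  have hdesc : ∀ k, C k = 1 → Commute a b := by
    intro k
    induction k with
    | zero =>
      intro h
      rw [hC0] at h
      rw [h]
      exact Commute.one_right a
    | succ k ih =>
      intro h
      rcases k with _ | k
      · rw [hCs, hC0, commutatorElement_eq_one_iff_mul_comm] at h
        exact h
      · have hac : Commute a ⁅a, C k⁆ := by
          rw [← hCs, ← commutatorElement_eq_one_iff_commute, ← hCs]
          exact h
        have hlt : ‖Y (C k) - 1‖ < 1 := by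
          refine lt_of_le_of_lt (hbound k) (lt_of_le_of_lt ?_ hb)
          exact mul_le_of_le_one_left (norm_nonneg _) (pow_le_one₀ hr0 hr.le)
        have h5 := hY.commute_of_commute_commutator hlt hac
        apply ih
        rw [hCs, commutatorElement_eq_one_iff_commute]
        exact hinj (by rw [map_mul, map_mul]; exact h5)
  exact hdesc k hk

end CfsgLib.LinearGroup
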