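import Cfsg.Agent.Chars.LinearGroup.Jordan

/-!
# An element with all eigenvalues within sixty degrees of one of them

If `Y a` differs from the scalar `lam` by less than one in norm and `P` is the idempotent of the
eigenspace of `lam`, then `P` commutes with the image of every conjugate of `a`
(`commute_conj_of_arc`). Blichfeldt's theorem follows: in an irreducible faithful representation
of a simple group such an element is scalar (`eq_smul_one_of_arc`).
-/

set_option autoImplicit false

namespace CfsgLib.LinearGroup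

open scoped commutatorElement

variable {G : Type*} [Group G] [Finite G] {R : Type*} [NormedRing R] [StarRing R] [CStarRing R]
  [NormedAlgebra ℂ R] [StarModule ℂ R] [CompleteSpace R] [Nontrivial R] {Y : G →* R}

theorem commute_conj_of_arc (hY : UnitaryHom Y) {a : G} {P W : R} {lam : ℂ} {c : ℝ}
    (hPP : P * P = P) (hPs : star P = P) (hPA : P * Y a = lam • P) (hAP : Y a * P = lam • P)
    (hnorm : ‖Y a - lam • 1‖ ≤ c) (hc : c < 1) (hW : (Y a - lam • 1) * W = 1 - P) (g : G) :
    Commute P (Y (g * a⁻¹ * g⁻¹)) := by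
  classical
  have hinv : ∀ b : G, Y b⁻¹ * Y b = 1 := fun b => by rw [← map_mul, inv_mul_cancel, map_one]
  have hinv' : ∀ b : G, Y b * Y b⁻¹ = 1 := fun b => by rw [← map_mul, mul_inv_cancel, map_one]
  have hP1 : ‖P‖ ≤ 1 := by
    have h := CStarRing.norm_star_mul_self (x := P)
    rw [hPs, hPP] at h
    nlinarith [norm_nonneg P]
  have hc0 : 0 ≤ c := (norm_nonneg _).trans hnorm
  have hPl : P * (Y a - lam • 1) = 0 := by rw [mul_sub, hPA, mul_smul_comm, mul_one, sub_self]
  -- the distance from the identity seen from `P`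
  let d : G → ℝ := fun b => ‖P * (Y b - 1)‖
  have hkey : ∀ b : G, P * (Y ⁅a, b⁆ - 1) =
      -(P * Y b * (Y a - lam • 1)) * Y (a⁻¹ * b⁻¹) := by
    intro b
    have e1 : Y ⁅a, b⁆ - 1 = (Y a * Y b - Y b * Y a) * Y (a⁻¹ * b⁻¹) := by
      rw [sub_mul, ← map_mul, ← map_mul, ← map_mul, ← map_mul, commutatorElement_def,
        show a * b * (a⁻¹ * b⁻¹) = a * b * a⁻¹ * b⁻¹ by group,
        show b * a * (a⁻¹ * b⁻¹) = 1 by group, map_one]
    rw [e1, ← mul_assoc, mul_sub, ← mul_assoc P (Y a), hPA, smul_mul_assoc, ← mul_assoc, mul_sub,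
      mul_smul_comm, mul_one, neg_sub]
  have hfirst : ∀ b : G, d ⁅a, b⁆ ≤ c := by
    intro b
    show ‖P * (Y ⁅a, b⁆ - 1)‖ ≤ c
    rw [hkey, hY.norm_mul_right, norm_neg]
    calc ‖P * Y b * (Y a - lam • 1)‖ ≤ ‖P * Y b‖ * ‖Y a - lam • 1‖ := norm_mul_le _ _
      _ ≤ 1 * c := by
          refine mul_le_mul ?_ hnorm (norm_nonneg _) zero_le_one
          rw [hY.norm_mul_right]
          exact hP1
      _ = c := one_mul c
  have hstep : ∀ b : G, d ⁅a, b⁆ ≤ c * d b := by
    intro b
    show ‖P * (Y ⁅a, b⁆ - 1)‖ ≤ c * ‖P * (Y b - 1)‖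
    rw [hkey, hY.norm_mul_right, norm_neg]
    have e : P * Y b * (Y a - lam • 1) = P * (Y b - 1) * (Y a - lam • 1) := by
      rw [mul_sub P (Y b) 1, mul_one, sub_mul, hPl, sub_zero]
    rw [e, mul_comm c]
    exact (norm_mul_le _ _).trans (mul_le_mul_of_nonneg_left hnorm (norm_nonneg _))
  -- the orbit
  let C : ℕ → G := fun n => (fun y => ⁅a, y⁆)^[n] g
  have hCs : ∀ n, C (n + 1) = ⁅a, C n⁆ := fun n => Function.iterate_succ_apply' _ n g
  have hbound : ∀ n, d (C (n + 1)) ≤ c ^ (n + 1) := by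
    intro n
    induction n with
    | zero => rw [hCs, pow_one]; exact hfirst _
    | succ n ih =>
      rw [hCs (n + 1), pow_succ' c (n + 1)]
      exact (hstep _).trans (mul_le_mul_of_nonneg_left ih hc0)
  obtain ⟨N, hN⟩ : ∃ N, P * (Y (C (N + 1)) - 1) = 0 := by
    by_contra hne
    push Not at hne
    obtain ⟨g0, hg0, hmin⟩ := Set.exists_min_image {b : G | P * (Y b - 1) ≠ 0} d
      (Set.toFinite _) ⟨C (0 + 1), hne 0⟩
    obtain ⟨n, hn⟩ := exists_pow_lt_of_lt_one (norm_pos_iff.2 hg0) hc
    have h1 := hmin (C (n + 1)) (hne n)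
    have h2 := hbound n
    have h3 : c ^ (n + 1) ≤ c ^ n := pow_le_pow_of_le_one hc0 hc.le (Nat.le_succ n)
    exact absurd (lt_of_le_of_lt (h1.trans (h2.trans h3)) hn) (lt_irrefl _)
  -- stabilising is commuting
  have hstab : ∀ b : G, P * Y b = P * Y b * P → Commute P (Y b) := by
    intro b hb
    have hpow : ∀ j : ℕ, P * Y (b ^ j) = P * Y (b ^ j) * P := by
      intro j
      induction j with
      | zero => rw [pow_zero, map_one, mul_one, hPP]
      | succ j ih =>
        have e : P * Y (b ^ (j + 1)) = P * Y (b ^ j) * (P * Y b) := by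
          rw [pow_succ, map_mul, ← mul_assoc, ← mul_assoc, ← ih]
        rw [e, mul_assoc (P * Y (b ^ j)) (P * Y b) P, ← hb]
    have hbi : P * Y b⁻¹ = P * Y b⁻¹ * P := by
      have h := hpow (orderOf b - 1)
      rwa [show b ^ (orderOf b - 1) = b⁻¹ from eq_inv_of_mul_eq_one_left (by
        rw [← pow_succ, Nat.sub_add_cancel (orderOf_pos b), pow_orderOf_eq_one])] at h
    have h2 := congrArg star hbi
    rw [star_mul, star_mul, star_mul, hPs, hY.star_eq, inv_inv, ← mul_assoc] at h2
    show P * Y b = Y b * P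
    rw [hb, h2]
  have hconj : ∀ b : G, P * Y ⁅a, b⁆ = P * Y ⁅a, b⁆ * P → Commute P (Y (b * a⁻¹ * b⁻¹)) := by
    intro b hb
    have h1 := hstab _ hb
    have e : b * a⁻¹ * b⁻¹ = a⁻¹ * ⁅a, b⁆ := by rw [commutatorElement_def]; group
    rw [e, map_mul]
    refine Commute.mul_right ?_ h1
    have hai : P * Y a⁻¹ = P * Y a⁻¹ * P := by
      have h3 : lam • (P * Y a⁻¹) = P := by
        rw [← smul_mul_assoc, ← hPA, mul_assoc, hinv', mul_one]
      have h4 : lam ≠ 0 := fun h0 => by
        rw [h0, zero_smul] at h3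
        exact absurd h3.symm fun hP0 => by
          rw [hP0, sub_zero] at hW
          have := congrArg (‖·‖) hW
          simp only [norm_one] at this
          have h5 : ‖(Y a - lam • 1) * W‖ ≤ c * ‖W‖ :=
            (norm_mul_le _ _).trans (mul_le_mul_of_nonneg_right hnorm (norm_nonneg _))
          rw [h0, zero_smul, sub_zero] at hnorm
          have h6 := hY.norm_mul_left a 1
          rw [mul_one, norm_one] at h6
          linarith
      calc P * Y a⁻¹ = lam⁻¹ • P := by rw [eq_inv_smul_iff₀ h4, h3]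
        _ = lam⁻¹ • P * P := by rw [smul_mul_assoc, hPP]
        _ = P * Y a⁻¹ * P := by rw [show lam⁻¹ • P = P * Y a⁻¹ by rw [inv_smul_eq_iff₀ h4, h3]]
    exact hstab _ hai
  have hdesc : ∀ n, P * Y (C (n + 1)) = P * Y (C (n + 1)) * P →
      Commute P (Y (g * a⁻¹ * g⁻¹)) := by
    intro n
    induction n with
    | zero => intro h; rw [hCs] at h; exact hconj g h
    | succ n ih =>
      intro h
      refine ih ?_
      rw [hCs (n + 1)] at h
      set b := C (n + 1)
      set S := P * Y b with hS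
      have hA' := hconj b h
      have hlt : ‖P - P * Y b * P‖ < 1 := by
        have e : P - P * Y b * P = -(P * (Y b - 1) * P) := by
          rw [mul_sub, sub_mul, mul_one, hPP, neg_sub]
        rw [e, norm_neg]
        calc ‖P * (Y b - 1) * P‖ ≤ ‖P * (Y b - 1)‖ * ‖P‖ := norm_mul_le _ _
          _ ≤ c * 1 := mul_le_mul ((hbound n).trans (pow_le_of_le_one hc0 hc.le n.succ_ne_zero))
              hP1 (norm_nonneg _) hc0
          _ < 1 := by rw [mul_one]; exact hc
      have hT : IsUnit (1 - (P - P * Y b * P)) := isUnit_one_sub_of_norm_lt_one hlt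
      have hlam : lam ≠ 0 := by
        intro h0
        rw [h0, zero_smul, sub_zero] at hnorm
        have h6 := hY.norm_mul_left a 1
        rw [mul_one, norm_one] at h6
        linarith
      have hAiP : Y a⁻¹ * P = lam⁻¹ • P := by
        rw [eq_inv_smul_iff₀ hlam, ← mul_smul_comm, ← hAP, ← mul_assoc, hinv, one_mul]
      -- the conjugate acts on the image of `P` as a scalar
      have hA'S : Y (b * a⁻¹ * b⁻¹) * S = S * Y a⁻¹ := by
        calc Y (b * a⁻¹ * b⁻¹) * S = P * (Y (b * a⁻¹ * b⁻¹) * Y b) := by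
              rw [hS, ← mul_assoc, ← hA'.eq, mul_assoc]
          _ = P * Y (b * a⁻¹) := by rw [← map_mul, inv_mul_cancel_right]
          _ = S * Y a⁻¹ := by rw [map_mul, ← mul_assoc]
      have hscal : Y (b * a⁻¹ * b⁻¹) * P = lam⁻¹ • P := by
        refine sub_eq_zero.1 ((hT.mul_left_eq_zero).1 ?_)
        have hPT : P * (1 - (P - P * Y b * P)) = P * Y b * P := by
          rw [mul_sub, mul_one, mul_sub, hPP, ← mul_assoc, ← mul_assoc, hPP, sub_sub_cancel]
        rw [sub_mul, mul_assoc, smul_mul_assoc, hPT, sub_eq_zero, ← mul_assoc, ← hS,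
          hA'S, mul_assoc S, hAiP, mul_smul_comm]
      have hSa : S = lam⁻¹ • (S * Y a) := by
        calc S = S * Y a⁻¹ * Y a := by rw [mul_assoc, hinv, mul_one]
          _ = Y (b * a⁻¹ * b⁻¹) * P * S * Y a := by
              rw [← hA'S, mul_assoc (Y (b * a⁻¹ * b⁻¹)) P S,
                show P * S = S by rw [hS, ← mul_assoc, hPP]]
          _ = lam⁻¹ • (S * Y a) := by
              rw [hscal, smul_mul_assoc, smul_mul_assoc,
                show P * S = S by rw [hS, ← mul_assoc, hPP]]
      rw [eq_inv_smul_iff₀ hlam] at hSa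
      have h0 : S * (Y a - lam • 1) = 0 := by
        rw [mul_sub, ← hSa, mul_smul_comm, mul_one, sub_self]
      have h1 : S * (1 - P) = 0 := by rw [← hW, ← mul_assoc, h0, zero_mul]
      rw [mul_sub, mul_one, sub_eq_zero] at h1
      exact h1
  refine hdesc N ?_
  rw [mul_sub, mul_one, sub_eq_zero] at hN
  rw [hN, hPP]

end CfsgLib.LinearGroup
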