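import Cfsg.Agent.Chars.LinearGroup.AbelianHall

/-!
# Blichfeldt's theorem, the induction
-/

set_option autoImplicit false

namespace CfsgLib.LinearGroup

open Cfsg CfsgLib.Chars
open scoped ComplexConjugate commutatorElement

universe u

variable {G : Type u} [Group G] [Finite G]

theorem exists_faithful_restrict {χ : G → ℂ} {n : ℕ} (hχ : IsCharacter G χ)
    (hf : ∀ g : G, χ g = χ 1 → g = 1) (hn : χ 1 = n) (H : Subgroup G) :
    ∃ θ : H → ℂ, IsCharacter H θ ∧ (∀ h : H, θ h = θ 1 → h = 1) ∧ θ 1 = n :=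
  ⟨fun h => χ h, isCharacter_restrict hχ H, fun _ h1 => Subtype.ext (hf _ h1), hn⟩

theorem exists_faithful_quotient {χ : G → ℂ} (hχ : IsCharacter G χ) (N : Subgroup G) [N.Normal]
    (hN : N = charKer χ) :
    ∃ θ : G ⧸ N → ℂ, IsCharacter (G ⧸ N) θ ∧ (∀ g, θ g = θ 1 → g = 1) ∧ θ 1 = χ 1 := by
  obtain ⟨θ, hθ, he⟩ := exists_isCharacter_quotient N hχ hN.le
  refine ⟨θ, hθ, fun g => ?_, by rw [he 1]; rfl⟩
  obtain ⟨x, rfl⟩ := QuotientGroup.mk_surjective g
  intro h
  rw [← QuotientGroup.mk_one, ← he, ← he, ← mem_charKer_iff hχ, ← hN] at h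
  exact (QuotientGroup.eq_one_iff x).2 h

theorem card_quotient_lt' {N : Subgroup G} (hN : N ≠ ⊥) : Nat.card (G ⧸ N) < Nat.card G := by
  rw [Subgroup.card_eq_card_quotient_mul_card_subgroup N]
  exact lt_mul_of_one_lt_right Nat.card_pos ((Subgroup.one_lt_card_iff_ne_bot N).2 hN)

theorem hallAb_induction (M : ℕ) : ∀ (G : Type u) [Group G] [Finite G] (χ : G → ℂ) (n : ℕ),
    IsCharacter G χ → (∀ g : G, χ g = χ 1 → g = 1) → χ 1 = n → Nat.card G + n = M →
      HallAb G n := by
  induction M using Nat.strong_induction_on with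
  | _ M ih =>
  intro G _ _ χ n hχ hf hn hM
  classical
  have : Fintype G := Fintype.ofFinite G
  subst hM
  have sub : ∀ H : Subgroup G, H ≠ ⊤ → SmallNum n H.index → HallAb G n := by
    intro H hH hi
    obtain ⟨θ, h1, h2, h3⟩ := exists_faithful_restrict hχ hf hn H
    refine HallAb.of_subgroup H hi (ih _ ?_ H θ n h1 h2 h3 rfl)
    have : Nat.card H < Nat.card G :=
      lt_of_le_of_ne (Subgroup.card_le_card_group H) fun e => hH (Subgroup.card_eq_iff_eq_top H |>.1 e)
    omega
  have habel : (∀ x y : G, x * y = y * x) → HallAb G n := fun h =>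
    HallAb.of_abelian ⊤ (fun x _ y _ => h x y) (by
      intro q hq hd
      rw [Subgroup.index_top] at hd
      exact absurd hd hq.not_dvd_one)
  by_cases hlarge : ∃ p : ℕ, p.Prime ∧ p ∣ Nat.card G ∧ n + 1 < p
  swap
  · refine ⟨⊥, fun x hx y hy => ?_, fun q hq hd => ?_, fun q hq hd => ?_⟩
    · rw [Subgroup.mem_bot.1 hx, Subgroup.mem_bot.1 hy]
    · rw [Subgroup.card_bot] at hd
      exact absurd hd hq.not_dvd_one
    · rw [Subgroup.index_bot] at hd
      by_contra hcon
      exact hlarge ⟨q, hq, hd, by omega⟩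
  obtain ⟨p₀, hp₀, hp₀d, hnp₀⟩ := hlarge
  rcases Nat.eq_zero_or_pos n with rfl | hn0
  · exfalso
    have hG : ∀ g : G, g = 1 := fun g => hf g (by
      rw [eq_zero_of_map_one_eq_zero hχ (by rw [hn, Nat.cast_zero])]; rfl)
    have h1 : Nat.card G = 1 := Nat.card_eq_one_iff_unique.2 ⟨⟨fun a b => by rw [hG a, hG b]⟩, ⟨1⟩⟩
    rw [h1] at hp₀d
    exact hp₀.not_dvd_one hp₀d
  -- the reducible case
  by_cases hirr : IsIrrCharacter G χ
  swap
  · obtain ⟨c, hc, hc'⟩ := exists_nat_coeff hχ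
    obtain ⟨ψ, hψ⟩ : ∃ ψ, c ψ ≠ 0 := by
      by_contra h
      push Not at h
      have h1 : χ 1 = 0 := by rw [hc]; simp [h]
      rw [hn, Nat.cast_eq_zero] at h1
      omega
    obtain ⟨φ, hφ, he⟩ := exists_add_of_classInner_ne_zero hχ ψ (by
      rw [hc']; exact Nat.cast_ne_zero.2 hψ)
    obtain ⟨d1, hd1⟩ : ∃ d : ℕ, (ψ : G → ℂ) 1 = d := exists_natCast_map_one (isCharacter_coe ψ)
    obtain ⟨d2, hd2⟩ := exists_natCast_map_one hφ
    have hd1p : 0 < d1 := Nat.pos_of_ne_zero fun e =>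
      map_one_ne_zero ψ (by rw [hd1, e, Nat.cast_zero])
    have hd2p : 0 < d2 := Nat.pos_of_ne_zero fun e => hirr (by
      rw [he, eq_zero_of_map_one_eq_zero hφ (by rw [hd2, e, Nat.cast_zero]), add_zero]
      exact ψ.2)
    have hsum : d1 + d2 = n := by
      have h := congrFun he 1
      rw [Pi.add_apply, hn, hd1, hd2] at h
      exact_mod_cast h.symm
    have step : ∀ (θ : G → ℂ) (d : ℕ), IsCharacter G θ → θ 1 = d → d < n →
        (∃ H : Subgroup G, H ≠ ⊤ ∧ SmallNum n H.index) ∨ ∀ x y : G, ⁅x, y⁆ ∈ charKer θ := by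
      intro θ d hθ hd hdn
      have : (charKer θ).Normal := charKer_normal (isClassFunction_of_isCharacter hθ)
      obtain ⟨θ', h1, h2, h3⟩ := exists_faithful_quotient hθ (charKer θ) rfl
      have h4 := ih _ (by
          have : Nat.card (G ⧸ charKer θ) ≤ Nat.card G :=
            Nat.card_le_card_of_surjective _ QuotientGroup.mk_surjective
          omega) (G ⧸ charKer θ) θ' d h1 h2 (h3.trans hd) rfl
      obtain ⟨H, hH, htop⟩ := HallAb.exists_preimage (charKer θ) h4 hdn.le
      by_cases e : H = ⊤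
      · exact Or.inr (htop e).2
      · exact Or.inl ⟨H, e, hH⟩
    rcases step _ d1 (isCharacter_coe ψ) hd1 (by omega) with ⟨H, h1, h2⟩ | hc1
    · exact sub H h1 h2
    rcases step φ d2 hφ hd2 (by omega) with ⟨H, h1, h2⟩ | hc2
    · exact sub H h1 h2
    refine habel fun x y => commutatorElement_eq_one_iff_mul_comm.1 (hf _ ?_)
    rw [he, Pi.add_apply, Pi.add_apply, (mem_charKer_iff (isCharacter_coe ψ)).1 (hc1 x y),
      (mem_charKer_iff hφ).1 (hc2 x y)]
  -- the irreducible case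
  set X : IrrCharacter G := ⟨χ, hirr⟩
  by_cases hz : ∃ (q : ℕ) (z : G), q.Prime ∧ n + 1 < q ∧ z ∈ Subgroup.center G ∧ orderOf z = q
  · -- a central element of large prime order: twist by a power of the determinant
    obtain ⟨q, z, hq, hnq, hzc, hzo⟩ := hz
    obtain ⟨m, ρ, hρ, hρχ⟩ := hirr
    have hmn : m = n := by
      rw [← hρχ, Representation.char_one, Module.finrank_fin_fun, Nat.cast_inj] at hn
      exact hn
    subst hmn
    let δ : G →* ℂˣ := ((Matrix.detMonoidHom).comp (FrobSchur.mat ρ)).toHomUnits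
    have : Fact q.Prime := ⟨hq⟩
    have hn' : (m : ZMod q) ≠ 0 := by
      rw [Ne, ZMod.natCast_eq_zero_iff]
      intro h
      have := Nat.le_of_dvd hn0 h
      omega
    set k : ℕ := ((-(m : ZMod q)⁻¹)).val
    have hk : q ∣ m * k + 1 := by
      rw [← ZMod.natCast_eq_zero_iff, Nat.cast_add, Nat.cast_mul, ZMod.natCast_zmod_val, Nat.cast_one,
        mul_neg, mul_inv_cancel₀ hn', neg_add_cancel]
    set ψf : G → ℂ := fun g => (((δ ^ k) g : ℂˣ) : ℂ) * χ g
    have hψi : IsIrrCharacter G ψf := isIrrCharacter_linear_mul ⟨m, ρ, hρ, hρχ⟩ (δ ^ k)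
    have hψ1 : ψf 1 = m := by simp [ψf, hn]
    have hnorm := norm_map_of_mem_center X hzc
    set lam : ℂ := χ z / m
    have hρz : ρ z = lam • 1 := by
      have h := rep_eq_smul_of_norm_character_eq ρ (g := z) hn0.ne' (by
        rw [hρχ]; exact hnorm.trans (by show ‖χ 1‖ = _; rw [hn, Complex.norm_natCast]))
      rwa [hρχ] at h
    have hlam : lam ^ q = 1 := by
      have h : ρ z ^ q = 1 := by rw [← map_pow, ← hzo, pow_orderOf_eq_one, map_one]
      rw [hρz, smul_pow, one_pow] at h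
      have h2 := congrArg (LinearMap.trace ℂ (Fin m → ℂ)) h
      rw [map_smul, LinearMap.trace_one, Module.finrank_fin_fun, smul_eq_mul] at h2
      exact mul_left_eq_self₀.1 h2 |>.resolve_right (Nat.cast_ne_zero.2 hn0.ne')
    have hδz : ((δ z : ℂˣ) : ℂ) = lam ^ m := by
      show (FrobSchur.mat ρ z).det = _
      rw [FrobSchur.mat_apply, hρz, map_smul, Module.End.one_eq_id, LinearMap.toMatrix'_id,
        Matrix.det_smul, Matrix.det_one, mul_one, Fintype.card_fin]
    have hzker : z ∈ charKer ψf := by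
      rw [mem_charKer_iff (isCharacter_of_isIrrCharacter hψi), hψ1]
      show (((δ ^ k) z : ℂˣ) : ℂ) * χ z = _
      rw [MonoidHom.pow_apply, Units.val_pow_eq_pow_val, hδz, ← pow_mul,
        show χ z = lam * m from (div_mul_cancel₀ _ (Nat.cast_ne_zero.2 hn0.ne')).symm, ← mul_assoc, ← pow_succ]
      obtain ⟨c, hc⟩ := hk
      rw [hc, pow_mul, hlam, one_pow, one_mul]
    set N := charKer ψf
    have : N.Normal := charKer_normal (isClassFunction_of_isCharacter (isCharacter_of_isIrrCharacter hψi))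
    have hNc : N ≤ Subgroup.center G := by
      intro g hg
      rw [mem_charKer_iff (isCharacter_of_isIrrCharacter hψi), hψ1] at hg
      have hone : ‖(((δ ^ k) g : ℂˣ) : ℂ)‖ = 1 := by
        refine Complex.norm_eq_one_of_pow_eq_one (n := Nat.card G) ?_ Nat.card_pos.ne'
        rw [← Units.val_pow_eq_pow_val, ← map_pow, pow_card_eq_one', map_one, Units.val_one]
      have h1 : ‖χ g‖ = m := by
        have h := congrArg Norm.norm hg
        rwa [norm_mul, hone, one_mul, Complex.norm_natCast] at h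
      have h2 := rep_eq_smul_of_norm_character_eq ρ (g := g) hn0.ne' (by rwa [hρχ])
      rw [Subgroup.mem_center_iff]
      intro y
      rw [← commutatorElement_eq_one_iff_mul_comm]
      apply hf
      have e : ρ (y * g) = ρ (g * y) := by
        rw [map_mul, map_mul, h2, mul_smul_comm, smul_mul_assoc, mul_one, one_mul]
      have e2 : ρ ⁅y, g⁆ = ρ 1 := by
        rw [show ⁅y, g⁆ = y * g * (g * y)⁻¹ by rw [commutatorElement_def]; group, map_mul, e,
          ← map_mul, mul_inv_cancel]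
      rw [← hρχ]
      show LinearMap.trace ℂ _ (ρ ⁅y, g⁆) = LinearMap.trace ℂ _ (ρ 1)
      rw [e2]
    have hNbot : N ≠ ⊥ := by
      intro e
      rw [e, Subgroup.mem_bot] at hzker
      rw [hzker, orderOf_one] at hzo
      exact hq.ne_one hzo.symm
    obtain ⟨θ, h1, h2, h3⟩ := exists_faithful_quotient (isCharacter_of_isIrrCharacter hψi) N rfl
    have h4 := ih _ (by have := card_quotient_lt' hNbot; omega) (G ⧸ N) θ m h1 h2 (h3.trans hψ1) rfl
    obtain ⟨H, hH, htop⟩ := HallAb.exists_preimage N h4 le_rfl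
    by_cases e : H = ⊤
    swap
    · exact sub H e hH
    have hcomm : IsMulCommutative N := ⟨⟨fun a b => Subtype.ext
      (Subgroup.mem_center_iff.1 (hNc b.2) a)⟩⟩
    have hdvd := Induced.ito N (⟨ψf, hψi⟩ : IrrCharacter G)
    rw [charDegree_eq_of_map_one (show (⟨ψf, hψi⟩ : IrrCharacter G).1 1 = (m : ℂ) from hψ1)] at hdvd
    have hm1 : m = 1 := by
      by_contra hm1
      obtain ⟨r, hr, hrd⟩ := Nat.exists_prime_and_dvd hm1
      have := (htop e).1 r hr (hrd.trans hdvd)
      have := Nat.le_of_dvd hn0 hrd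
      omega
    subst hm1
    obtain ⟨l, hl⟩ := exists_linChar_eq X (by show χ 1 = 1; rw [hn, Nat.cast_one])
    refine habel fun x y => commutatorElement_eq_one_iff_mul_comm.1 (hf _ ?_)
    show (X : G → ℂ) _ = (X : G → ℂ) 1
    rw [← hl, linChar_apply, linChar_apply, map_commutatorElement,
      commutatorElement_eq_one_iff_mul_comm.2 (mul_comm _ _), map_one]
  -- no central element of large prime order
  push Not at hz
  obtain ⟨B, ⟨hBc, hBl⟩, hBmax⟩ := Set.exists_max_image
    {B : Subgroup G | (∀ x ∈ B, ∀ y ∈ B, x * y = y * x) ∧ LargeNum n (Nat.card B)}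
    (fun B => Nat.card B) (Set.toFinite _)
    ⟨⊥, fun x hx y hy => by rw [Subgroup.mem_bot.1 hx, Subgroup.mem_bot.1 hy],
      fun q hq hd => by rw [Subgroup.card_bot] at hd; exact absurd hd hq.not_dvd_one⟩
  have hB1 : 1 < Nat.card B := by
    have : Fact p₀.Prime := ⟨hp₀⟩
    obtain ⟨x, hx⟩ := exists_prime_orderOf_dvd_card' p₀ hp₀d
    have h := hBmax (Subgroup.zpowers x) ⟨fun a ha b hb => by
        obtain ⟨i, rfl⟩ := Subgroup.mem_zpowers_iff.1 ha
        obtain ⟨j, rfl⟩ := Subgroup.mem_zpowers_iff.1 hb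
        exact Commute.zpow_zpow_self x i j, fun r hr hrd => by
        rw [Nat.card_zpowers, hx] at hrd
        rw [(Nat.prime_dvd_prime_iff_eq hr hp₀).1 hrd]
        exact hnp₀⟩
    simp only [Nat.card_zpowers, hx] at h
    exact lt_of_lt_of_le hp₀.one_lt h
  -- the large divisors of the order of the centralizer of an element of `B`
  have hcent : ∀ x ∈ B, x ≠ 1 → ∀ d : ℕ, LargeNum n d →
      d ∣ Nat.card (Subgroup.centralizer ({x} : Set G)) → d ∣ Nat.card B := by
    intro x hx hx1 d hd hdd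
    set C := Subgroup.centralizer ({x} : Set G)
    have hBC : B ≤ C := fun b hb => Subgroup.mem_centralizer_singleton_iff.2 (hBc b hb x hx)
    have hCtop : C ≠ ⊤ := by
      intro e
      obtain ⟨r, hr, hrd⟩ := Nat.exists_prime_and_dvd (mt orderOf_eq_one_iff.1 hx1)
      have hxc : x ∈ Subgroup.center G := Subgroup.mem_center_iff.2 fun g =>
        Subgroup.mem_centralizer_singleton_iff.1 (e ▸ Subgroup.mem_top g : g ∈ C)
      refine hz r (x ^ (orderOf x / r)) hr (hBl r hr (hrd.trans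
        ((Subgroup.orderOf_mk x hx).symm ▸ orderOf_dvd_natCard (⟨x, hx⟩ : B))))
        (Subgroup.pow_mem _ hxc _) (orderOf_pow_orderOf_div (orderOf_pos x).ne' hrd)
    obtain ⟨θ, h1, h2, h3⟩ := exists_faithful_restrict hχ hf hn C
    obtain ⟨A, hA, hAl, hAs⟩ := ih _ (by
        have : Nat.card C < Nat.card G := lt_of_le_of_ne (Subgroup.card_le_card_group C)
          fun e => hCtop (Subgroup.card_eq_iff_eq_top C |>.1 e)
        omega) C θ n h1 h2 h3 rfl
    have hcard : ∀ d : ℕ, LargeNum n d → d ∣ Nat.card C → d ∣ Nat.card A := fun d hd hdd =>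
      (hd.coprime hAs).dvd_of_dvd_mul_right (by rwa [Subgroup.card_mul_index])
    have hAle : Nat.card A ≤ Nat.card B := by
      rw [← Subgroup.card_map_of_injective (f := C.subtype) C.subtype_injective]
      refine hBmax (A.map C.subtype) ⟨?_, by rwa [Subgroup.card_map_of_injective C.subtype_injective]⟩
      rintro _ ⟨a, ha, rfl⟩ _ ⟨b, hb, rfl⟩
      exact congrArg Subtype.val (hA a ha b hb)
    have hBA : Nat.card B ∣ Nat.card A := hcard _ hBl (Subgroup.card_dvd_of_le hBC)
    rw [Nat.dvd_antisymm hBA ?_]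
    · exact hcard d hd hdd
    · rw [le_antisymm hAle (Nat.le_of_dvd Nat.card_pos hBA)]
  -- every prime of `B` occurs to the full power
  have hfull : ∀ r : ℕ, r.Prime → r ∣ Nat.card B →
      r ^ (Nat.card G).factorization r ∣ Nat.card B := by
    intro r hr hrd
    have : Fact r.Prime := ⟨hr⟩
    obtain ⟨⟨x, hxB⟩, hxo⟩ := exists_prime_orderOf_dvd_card' r hrd
    rw [Subgroup.orderOf_mk] at hxo
    have hx1 : x ≠ 1 := fun e => by rw [e, orderOf_one] at hxo; exact hr.ne_one hxo.symm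
    obtain ⟨P, hP⟩ := (IsPGroup.of_card (p := r) (n := 1)
      (show Nat.card (Subgroup.zpowers x) = r ^ 1 by rw [Nat.card_zpowers, hxo, pow_one])).exists_le_sylow
    have hxP : x ∈ (P : Subgroup G) := hP (Subgroup.mem_zpowers x)
    obtain ⟨θ, h1, h2, h3⟩ := exists_faithful_restrict hχ hf hn (P : Subgroup G)
    have hPC : (P : Subgroup G) ≤ Subgroup.centralizer ({x} : Set G) := fun y hy =>
      Subgroup.mem_centralizer_singleton_iff.2 (congrArg Subtype.val
        (isMulComm_of_degree_lt hr P.isPGroup' h1 h2 h3 (by have := hBl r hr hrd; omega)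
          ⟨y, hy⟩ ⟨x, hxP⟩))
    rw [← P.card_eq_multiplicity]
    refine hcent x hxB hx1 _ (fun s hs hsd => ?_) (Subgroup.card_dvd_of_le hPC)
    rw [P.card_eq_multiplicity] at hsd
    rw [(Nat.prime_dvd_prime_iff_eq hs hr).1 (hs.dvd_of_dvd_pow hsd)]
    exact hBl r hr hrd
  refine ⟨B, hBc, hBl, fun q hq hqd => ?_⟩
  by_contra hqlarge
  push Not at hqlarge
  have hqG : q ∣ Nat.card G := hqd.trans B.index_dvd_card
  have hqB : ¬ q ∣ Nat.card B := fun hqB => by
    have h1 : q ^ ((Nat.card G).factorization q + 1) ∣ Nat.card B * B.index := by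
      rw [pow_succ]; exact mul_dvd_mul (hfull q hq hqB) hqd
    rw [Subgroup.card_mul_index] at h1
    exact Nat.pow_succ_factorization_not_dvd Nat.card_pos.ne' hq h1
  obtain ⟨p, hp, hpB⟩ := Nat.exists_prime_and_dvd (by omega : Nat.card B ≠ 1)
  have hpq : p ≠ q := fun e => hqB (e ▸ hpB)
  obtain ⟨g, hg⟩ := exists_orderOf_eq_mul hp hq hpq (hpB.trans B.card_subgroup_dvd_card) hqG X hf hn
    (hBl p hp hpB) hqlarge
  have : Fact p.Prime := ⟨hp⟩
  have hy : orderOf (g ^ q) = p := by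
    rw [orderOf_pow_of_dvd hq.ne_zero (hg ▸ dvd_mul_left q p), hg, Nat.mul_div_cancel _ hq.pos]
  have hgp : orderOf (g ^ p) = q := by
    rw [orderOf_pow_of_dvd hp.ne_zero (hg ▸ dvd_mul_right p q), hg, Nat.mul_div_cancel_left _ hp.pos]
  obtain ⟨P0, hP0⟩ := Sylow.exists_subgroup_card_pow_prime (G := B) p (hfull p hp hpB)
  let P : Sylow p G := Sylow.ofCard (P0.map B.subtype) (by
    rw [Subgroup.card_map_of_injective B.subtype_injective, hP0])
  obtain ⟨Q, hQ⟩ := (IsPGroup.of_card (p := p) (n := 1)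
    (show Nat.card (Subgroup.zpowers (g ^ q)) = p ^ 1 by rw [Nat.card_zpowers, hy, pow_one])).exists_le_sylow
  obtain ⟨h, rfl⟩ := MulAction.exists_smul_eq G P Q
  have hyQ : g ^ q ∈ ((h • P : Sylow p G) : Subgroup G) := hQ (Subgroup.mem_zpowers _)
  rw [Sylow.smul_def, Sylow.pointwise_smul_def, Subgroup.mem_pointwise_smul_iff_inv_smul_mem] at hyQ
  obtain ⟨b, -, hb⟩ := hyQ
  have hb' : (b : G) = h⁻¹ * g ^ q * h := by
    rw [← Subgroup.coe_subtype, hb]
    exact MulAut.conj_inv_apply h _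
  have hb1 : (b : G) ≠ 1 := by
    rw [hb']
    intro e
    have e2 : g ^ q = 1 := by
      calc g ^ q = h * (h⁻¹ * g ^ q * h) * h⁻¹ := by group
        _ = 1 := by rw [e]; group
    rw [e2, orderOf_one] at hy
    exact hp.ne_one hy.symm
  refine hqB (hcent b b.2 hb1 q (fun r hr hrd => by
    rw [(Nat.prime_dvd_prime_iff_eq hr hq).1 hrd]; exact hqlarge) ?_)
  have hmem : h⁻¹ * g ^ p * h ∈ Subgroup.centralizer ({(b : G)} : Set G) := by
    rw [Subgroup.mem_centralizer_singleton_iff, hb']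
    group
  have hord : orderOf (⟨_, hmem⟩ : Subgroup.centralizer ({(b : G)} : Set G)) = q := by
    rw [Subgroup.orderOf_mk, ← hgp, show h⁻¹ * g ^ p * h = h⁻¹ * g ^ p * h⁻¹⁻¹ by rw [inv_inv]]
    exact (MulAut.conj h⁻¹).orderOf_eq (g ^ p)
  exact hord ▸ orderOf_dvd_natCard _

/-- Blichfeldt's theorem. -/
theorem hallAb_of_faithful {χ : G → ℂ} {n : ℕ} (hχ : IsCharacter G χ)
    (hf : ∀ g : G, χ g = χ 1 → g = 1) (hn : χ 1 = n) : HallAb G n :=
  hallAb_induction _ G χ n hχ hf hn rfl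

end CfsgLib.LinearGroup
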