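import Cfsg.Agent.Chars.LinearGroup.Jordan
import Cfsg.Agent.Chars.LinearGroup.Blichfeldt
import Cfsg.Agent.S0015
import Mathlib.NumberTheory.PrimeCounting

/-!
# Jordan's theorem with an explicit bound
-/

set_option autoImplicit false

namespace CfsgLib.LinearGroup

open Cfsg CfsgLib.Chars
open scoped ComplexConjugate Matrix.Norms.L2Operator

universe u

/-- A `p`-group with a faithful character of degree `n` has an abelian subgroup of index dividing
`n !`. -/
theorem exists_abelian_index_dvd {P : Type u} [Group P] [Finite P] {p : ℕ} (hp : p.Prime)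
    (hP : IsPGroup p P) {χ : P → ℂ} {n : ℕ} (hχ : IsCharacter P χ)
    (hf : ∀ g : P, χ g = χ 1 → g = 1) (hn : χ 1 = n) :
    ∃ D : Subgroup P, (∀ x ∈ D, ∀ y ∈ D, x * y = y * x) ∧ D.index ∣ n.factorial := by
  classical
  have : Fintype P := Fintype.ofFinite P
  have : Fact p.Prime := ⟨hp⟩
  have : Group.IsNilpotent P := hP.isNilpotent
  obtain ⟨A, ⟨hAn, hAc⟩, hmax⟩ := Set.exists_max_image
    {A : Subgroup P | A.Normal ∧ IsMulCommutative A} (fun A => Nat.card A) (Set.toFinite _)
    ⟨⊥, inferInstance, ⟨⟨fun a b => Subsingleton.elim _ _⟩⟩⟩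
  have := hAn
  have := hAc
  have hcent : Subgroup.centralizer (A : Set P) = A :=
    Cfsg.Agent.S0015.result A fun M h1 h2 hle =>
      (Subgroup.eq_of_le_of_card_ge hle (hmax M ⟨h1, h2⟩)).symm
  have : Fintype A := Fintype.ofFinite A
  obtain ⟨m, ρ, rfl⟩ := hχ
  obtain ⟨Y, hY, htr⟩ := exists_unitaryHom ρ
  let e : P →* Equiv.Perm (IrrCharacter A) :=
    { toFun := fun g => irrEquiv (MulAut.conjNormal g : MulAut A)
      map_one' := Equiv.ext fun μ => Subtype.ext (funext fun h => by
        rw [irrEquiv_apply, map_one]; rfl)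
      map_mul' := fun g g' => Equiv.ext fun μ => Subtype.ext (funext fun h => by
        simp [map_mul, mul_assoc]
        congr 1) }
  have hkeep : ∀ g μ, classInner (fun x : A => ρ.character x) ((e g μ : IrrCharacter A) : A → ℂ) =
      classInner (fun x : A => ρ.character x) (μ : A → ℂ) := by
    intro g μ
    simp only [classInner]
    congr 1
    refine (Fintype.sum_equiv (MulAut.conjNormal g : MulAut A).toEquiv _ _ fun x => ?_).symm
    show ρ.character (x : P) * conj ((μ : A → ℂ) x) =
      ρ.character ((MulAut.conjNormal g x : A) : P) *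
        conj ((irrEquiv (MulAut.conjNormal g : MulAut A) μ : A → ℂ) (MulAut.conjNormal g x))
    rw [irrEquiv_apply, MulEquiv.symm_apply_apply, MulAut.conjNormal_apply,
      isClassFunction_of_isCharacter ⟨m, ρ, rfl⟩]
  let S : Set (IrrCharacter A) := {μ | classInner (fun x : A => ρ.character x) (μ : A → ℂ) ≠ 0}
  let φ : P →* Equiv.Perm S :=
    { toFun := fun g => (e g).subtypePerm fun μ => by
        show classInner _ _ ≠ 0 ↔ classInner _ _ ≠ 0
        rw [hkeep]
      map_one' := Equiv.ext fun μ => Subtype.ext (by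
        show e 1 μ.1 = μ.1
        rw [map_one]; rfl)
      map_mul' := fun g g' => Equiv.ext fun μ => Subtype.ext (by
        show e (g * g') μ.1 = e g (e g' μ.1)
        rw [map_mul]; rfl) }
  have hker : φ.ker ≤ A := by
    intro g hg
    rw [← hcent, Subgroup.mem_centralizer_iff]
    intro a ha
    set b : A := (MulAut.conjNormal g : MulAut A).symm ⟨a, ha⟩ with hb
    have hYab : Y (b : P) = Y a := by
      rw [apply_eq_sum_proj b, show a = ((⟨a, ha⟩ : A) : P) from rfl, apply_eq_sum_proj (⟨a, ha⟩ : A)]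
      refine Finset.sum_congr rfl fun μ _ => ?_
      by_cases hμ : classInner (fun x : A => ρ.character x) (μ : A → ℂ) = 0
      · rw [proj_eq_zero_of_classInner hY htr μ hμ, smul_zero, smul_zero]
      · congr 1
        have h := congrArg Subtype.val (Equiv.congr_fun (MonoidHom.mem_ker.1 hg) ⟨μ, hμ⟩)
        have h2 : ((e g μ : IrrCharacter A) : A → ℂ) ⟨a, ha⟩ = (μ : A → ℂ) ⟨a, ha⟩ :=
          congrFun (congrArg Subtype.val h) (⟨a, ha⟩ : A)
        exact (irrEquiv_apply _ μ _).symm.trans h2
    have hinj : ∀ x y : P, Y x = Y y → x = y := by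
      intro x y hxy
      rw [← mul_inv_eq_one]
      apply hf
      rw [← htr, ← htr, map_mul, hxy, ← map_mul, mul_inv_cancel]
    have h3 := hinj _ _ hYab
    have h4 : g * (b : P) * g⁻¹ = a := by
      rw [← MulAut.conjNormal_apply, hb, MulEquiv.apply_symm_apply]
    rw [h3] at h4
    exact (mul_inv_eq_iff_eq_mul.1 h4).symm
  refine ⟨A, fun x hx y hy => congrArg Subtype.val (mul_comm' (⟨x, hx⟩ : A) ⟨y, hy⟩), ?_⟩
  refine (Subgroup.index_dvd_of_le hker).trans ?_
  rw [Subgroup.index_ker]
  refine φ.range.card_subgroup_dvd_card.trans ?_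
  rw [Nat.card_perm]
  exact Nat.factorial_dvd_factorial (card_supp_le ⟨m, ρ, rfl⟩ hn A)

theorem large_part_le {G : Type u} [Group G] [Finite G] (A B : Subgroup G) {v : ℕ}
    (hv : v ∣ A.index) (h1 : v.Coprime B.index) (h2 : (Nat.card B).Coprime B.index) :
    v ≤ (A.subgroupOf B).index := by
  have hc : Nat.card (A ⊓ B : Subgroup G) = Nat.card (A.subgroupOf B) := by
    rw [← Subgroup.inf_subgroupOf_right]
    exact (Nat.card_congr (Subgroup.subgroupOfEquivOfLe inf_le_right).toEquiv).symm
  have hdvd : v * Nat.card (A ⊓ B : Subgroup G) ∣ Nat.card B * B.index := by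
    rw [Subgroup.card_mul_index, ← A.index_mul_card]
    exact mul_dvd_mul hv (Subgroup.card_dvd_of_le inf_le_left)
  have h3 : v * Nat.card (A ⊓ B : Subgroup G) ∣ Nat.card B :=
    (Nat.Coprime.mul_left h1 (h2.coprime_dvd_left (Subgroup.card_dvd_of_le inf_le_right))).dvd_of_dvd_mul_right
      hdvd
  rw [hc, ← (A.subgroupOf B).index_mul_card] at h3
  exact Nat.le_of_dvd (Nat.pos_of_ne_zero Subgroup.index_ne_zero_of_finite)
    (Nat.dvd_of_mul_dvd_mul_right Nat.card_pos h3)

/-- Jordan's theorem, explicit bound. -/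
theorem exists_abelian_normal_index_le {G : Type u} [Group G] [Finite G] {χ : G → ℂ} {n : ℕ}
    (hχ : IsCharacter G χ) (hf : ∀ g : G, χ g = χ 1 → g = 1) (hn : χ 1 = n) :
    ∃ A : Subgroup G, A.Normal ∧ (∀ x ∈ A, ∀ y ∈ A, x * y = y * x) ∧
      A.index ≤ n.factorial * 12 ^ (n * (Nat.primeCounting (n + 1) + 1)) := by
  classical
  obtain ⟨A, hAn, hAc, hA⟩ := exists_abelian_normal hχ hf hn
  refine ⟨A, hAn, hAc, ?_⟩
  obtain ⟨B, hBc, hBl, hBs⟩ := hallAb_of_faithful hχ hf hn
  set N := A.index with hN
  have hN0 : N ≠ 0 := Subgroup.index_ne_zero_of_finite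
  have hsmall : ∀ p : ℕ, p.Prime →
      p ^ N.factorization p ≤ p ^ n.factorial.factorization p * 12 ^ n := by
    intro p hp
    have : Fact p.Prime := ⟨hp⟩
    obtain ⟨P⟩ : Nonempty (Sylow p G) := inferInstance
    obtain ⟨θ, h1, h2, h3⟩ := exists_faithful_restrict hχ hf hn (P : Subgroup G)
    obtain ⟨D0, hDc, hDi⟩ := exists_abelian_index_dvd hp P.isPGroup' h1 h2 h3
    set D := D0.map (P : Subgroup G).subtype with hD
    have hDP : D ≤ (P : Subgroup G) := Subgroup.map_subtype_le D0
    have hcop : p.Coprime (P : Subgroup G).index :=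
      (hp.coprime_iff_not_dvd).2 P.not_dvd_index
    refine (large_part_le A (P : Subgroup G) (Nat.ordProj_dvd N p) (hcop.pow_left _) ?_).trans ?_
    · rw [P.card_eq_multiplicity]; exact hcop.pow_left _
    show A.relIndex (P : Subgroup G) ≤ _
    refine (Nat.le_of_dvd (Nat.pos_of_ne_zero (Subgroup.index_ne_zero_of_finite))
      (Subgroup.relIndex_dvd_of_le_left (P : Subgroup G) (inf_le_left : A ⊓ D ≤ A))).trans ?_
    show (A ⊓ D).relIndex (P : Subgroup G) ≤ _
    rw [← Subgroup.relIndex_mul_relIndex (A ⊓ D) D P inf_le_right hDP, Subgroup.inf_relIndex_right,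
      mul_comm]
    refine Nat.mul_le_mul ?_ (hA D ?_)
    · have e : D.relIndex (P : Subgroup G) = D0.index := by
        rw [Subgroup.relIndex, hD, Subgroup.subgroupOf, Subgroup.comap_map_eq_self_of_injective (Subgroup.subtype_injective _)]
      rw [e]
      obtain ⟨i, hi⟩ := P.isPGroup'.index D0
      rw [hi] at hDi ⊢
      exact Nat.pow_le_pow_right hp.pos
        ((hp.pow_dvd_iff_le_factorization (Nat.factorial_ne_zero n)).1 hDi)
    · rintro _ ⟨x, hx, rfl⟩ _ ⟨y, hy, rfl⟩
      exact congrArg Subtype.val (hDc x hx y hy)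
  have hlarge : ∏ p ∈ N.primeFactors.filter (fun p => ¬ p ≤ n + 1), p ^ N.factorization p ≤
      12 ^ n := by
    refine (large_part_le A B ?_ ?_ (hBl.coprime hBs)).trans (hA B hBc)
    · exact (Finset.prod_dvd_prod_of_subset _ _ _ (Finset.filter_subset _ _)).trans
        (Nat.prod_primeFactors_pow_factorization hN0).symm.dvd
    · refine LargeNum.coprime (n := n) (fun q hq hqd => ?_) hBs
      obtain ⟨r, hr, hrd⟩ := (hq.prime.dvd_finset_prod_iff _).1 hqd
      rw [Finset.mem_filter] at hr
      rw [(Nat.prime_dvd_prime_iff_eq hq (Nat.prime_of_mem_primeFactors hr.1)).1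
        (hq.dvd_of_dvd_pow hrd)]
      omega
  calc N = (∏ p ∈ N.primeFactors.filter (fun p => p ≤ n + 1), p ^ N.factorization p) *
        ∏ p ∈ N.primeFactors.filter (fun p => ¬ p ≤ n + 1), p ^ N.factorization p := by
        rw [Finset.prod_filter_mul_prod_filter_not]
        exact Nat.prod_primeFactors_pow_factorization hN0
    _ ≤ (∏ p ∈ Nat.primesBelow (n + 2), p ^ n.factorial.factorization p * 12 ^ n) * 12 ^ n := by
        refine Nat.mul_le_mul ?_ hlarge
        refine (Finset.prod_le_prod' fun p hp => hsmall p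
          (Nat.prime_of_mem_primeFactors (Finset.mem_filter.1 hp).1)).trans ?_
        refine Finset.prod_le_prod_of_subset_of_one_le' (fun p hp => ?_) fun p hp _ => ?_
        · rw [Finset.mem_filter] at hp
          exact Nat.mem_primesBelow.2 ⟨by omega, Nat.prime_of_mem_primeFactors hp.1⟩
        · exact Nat.one_le_iff_ne_zero.2 (mul_ne_zero
            (pow_ne_zero _ (Nat.prime_of_mem_primesBelow hp).ne_zero) (by positivity))
    _ = n.factorial * 12 ^ (n * (Nat.primeCounting (n + 1) + 1)) := by
        rw [Finset.prod_mul_distrib, Finset.prod_const, Nat.primesBelow_card_eq_primeCounting',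
          mul_assoc, ← pow_mul, ← pow_add]
        congr 1
        rw [← Finsupp.prod_of_support_subset n.factorial.factorization _ (fun p a => p ^ a)
          (fun _ _ => pow_zero _)]
        · exact Nat.prod_factorization_pow_eq_self (Nat.factorial_ne_zero n)
        · intro p hp
          rw [Nat.support_factorization, Nat.mem_primeFactors] at hp
          exact Nat.mem_primesBelow.2 ⟨by have := (hp.1.dvd_factorial).1 hp.2.1; omega, hp.1⟩

end CfsgLib.LinearGroup
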