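import Cfsg.Agent.Chars.LinearGroup.Arc
import Cfsg.Agent.Blocks.Orth.Blocks
import Cfsg.Agent.Blocks.Basic.Principal

/-!
# The cofactor of two prime powers in the order of a simple group

In the principal `p`-block there is a nonprincipal character of degree `p ^ e * m`, prime to `q`,
with `m` dividing the cofactor; at a central element `x` of order `p` of a Sylow `p`-subgroup the
eigenvalue multiplicities are divisible by `p ^ e`, so at most `m` eigenvalues occur, and
Blichfeldt's theorem bounds `p` by `6 ^ (m - 1)`.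
-/

set_option autoImplicit false

namespace CfsgLib.LinearGroup

open Cfsg CfsgLib.Chars CfsgLib.Blocks
open scoped ComplexConjugate Matrix.Norms.L2Operator ComplexOrder MatrixOrder

variable {G : Type*} [Group G] [Finite G]

/-- A character of the principal `p`-block is congruent to its degree, divided by the `p`-part,
at a `p`-element whose class has order prime to `p`; hence the multiplicities of the eigenvalues
are divisible by the `p`-part of the degree. -/
theorem pow_dvd_multiplicity {p : ℕ} {M : Ideal AlgInt} (hM : IsPModular p M) {χ : IrrCharacter G}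
    (hχ : χ ∈ principalBlock M G) {e m : ℕ} (hdeg : charDegree (χ : G → ℂ) = p ^ e * m)
    {x : G} (hx : orderOf x = p) {H : Subgroup G} [Fintype H] (hH : H = Subgroup.zpowers x)
    (hcl : ¬ p ∣ (Subgroup.centralizer ({x} : Set G)).index)
    (μ : IrrCharacter H) {c : ℕ}
    (hc : classInner (fun h : H => (χ : G → ℂ) h) (μ : H → ℂ) = c) : p ^ e ∣ c := by
  classical
  haveI : Fintype G := Fintype.ofFinite G
  haveI := hM.2.1
  haveI : Fact p.Prime := ⟨hM.1⟩
  haveI : IsMulCommutative H := by rw [hH]; infer_instance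
  have hcardH : Nat.card H = p := by rw [hH, Nat.card_zpowers, hx]
  have hp0 : (p : ℂ) ≠ 0 := Nat.cast_ne_zero.2 hM.1.ne_zero
  have hpe : ((p : ℂ) ^ e) ≠ 0 := pow_ne_zero _ hp0
  have hm0 : (m : ℂ) ≠ 0 := by
    have := charDegree_pos χ
    rw [hdeg] at this
    exact Nat.cast_ne_zero.2 (Nat.pos_of_mul_pos_left this).ne'
  have hD : (χ : G → ℂ) 1 = (p : ℂ) ^ e * m := by
    rw [← coe_charDegree, hdeg]; push_cast; ring
  -- the values at the nontrivial powers
  have hval : ∀ h : H, h ≠ 1 → ∃ β : AlgInt, (χ : G → ℂ) h = (p : ℂ) ^ e * β ∧ β - (m : AlgInt) ∈ M := by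
    intro h hh
    set k := (Subgroup.centralizer ({(h : G)} : Set G)).index with hk
    have hk' : ¬ p ∣ k := by
      intro hd
      refine hcl (hd.trans (Subgroup.index_dvd_of_le ?_))
      intro y hy
      rw [Subgroup.mem_centralizer_singleton_iff] at hy ⊢
      obtain ⟨i, hi⟩ := Subgroup.mem_zpowers_iff.1 (hH.le h.2)
      rw [← hi]
      exact (Commute.zpow_right (show Commute y x from hy) i).eq
    have hωi : IsIntegral ℤ (centralChar (χ : G → ℂ) (h : G)) := isIntegral_centralChar χ h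
    have hω : (k : ℂ) * (χ : G → ℂ) h = centralChar (χ : G → ℂ) (h : G) * ((p : ℂ) ^ e * m) := by
      rw [centralChar, ← hk, ← hD, div_mul_cancel₀ _ (map_one_ne_zero χ)]
    obtain ⟨a, b, hab⟩ : ∃ a b : ℤ, a * (k : ℤ) + b * ((p ^ e : ℕ) : ℤ) = 1 :=
      Int.isCoprime_iff_nat_coprime.2 (by
        simpa using ((hM.1.coprime_iff_not_dvd.2 hk').pow_left e).symm)
    have hab' : (a : ℂ) * k + (b : ℂ) * (p : ℂ) ^ e = 1 := by exact_mod_cast hab
    let β : AlgInt := (a : AlgInt) * (m : AlgInt) * ⟨_, hωi⟩ +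
      (b : AlgInt) * ⟨_, isIntegral_apply (isCharacter_coe χ) (h : G)⟩
    have hβ : (χ : G → ℂ) h = (p : ℂ) ^ e * β := by
      simp only [β]
      push_cast
      linear_combination -(χ : G → ℂ) h * hab' + (a : ℂ) * hω
    refine ⟨β, hβ, ?_⟩
    have h1 : (⟨_, hωi⟩ : AlgInt) - (k : AlgInt) ∈ M := by
      refine memLocalIdeal_coe_iff.mp ?_
      have := Congr.symm ((mem_principalBlock_iff χ).1 hχ (h : G))
      rw [Congr] at this
      push_cast
      exact this
    have h2 : (k : AlgInt) * β = (m : AlgInt) * ⟨_, hωi⟩ := by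
      refine Subtype.ext ?_
      push_cast
      refine mul_left_cancel₀ hpe ?_
      linear_combination -(k : ℂ) * hβ + hω
    have h3 : (k : AlgInt) * (β - (m : AlgInt)) ∈ M := by
      rw [mul_sub, h2, mul_comm (k : AlgInt) (m : AlgInt), ← mul_sub]
      exact M.mul_mem_left _ h1
    exact (hM.2.1.isPrime.mem_or_mem h3).resolve_left fun hmem =>
      hk' ((natCast_mem_iff_dvd hM k).1 hmem)
  -- the values of `μ` are congruent to one
  have hμ1 : ∀ h : H, ∃ u : AlgInt, (u : ℂ) = conj ((μ : H → ℂ) h) ∧ u - 1 ∈ M := by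
    intro h
    let u : AlgInt := ⟨_, isIntegral_apply (isCharacter_coe μ) h⁻¹⟩
    have hu : (u : ℂ) = conj ((μ : H → ℂ) h) := map_inv_eq_conj (isCharacter_coe μ) h
    refine ⟨u, hu, ?_⟩
    have hup : u ^ p = 1 := by
      refine Subtype.ext ?_
      push_cast
      rw [show (u : ℂ) = (μ : H → ℂ) h⁻¹ from rfl]
      have hpow : ∀ j : ℕ, (μ : H → ℂ) (h⁻¹ ^ j) = (μ : H → ℂ) h⁻¹ ^ j := fun j => by
        induction j with
        | zero => simp [map_one_eq_one_of_isMulCommutative]
        | succ j ih => rw [pow_succ, linear_mul, ih, pow_succ]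
      rw [← hpow, ← hcardH, pow_card_eq_one', map_one_eq_one_of_isMulCommutative]
    haveI := hM.2.1.isPrime
    haveI : CharP (AlgInt ⧸ M) p := (CharP.charP_iff_prime_eq_zero hM.1).2 (by
      rw [← map_natCast (Ideal.Quotient.mk M), Ideal.Quotient.eq_zero_iff_mem]
      exact hM.2.2)
    rw [← Ideal.Quotient.eq_zero_iff_mem, map_sub, map_one]
    refine pow_eq_zero_iff hM.1.ne_zero |>.1 ?_
    rw [sub_pow_char, one_pow, ← map_pow, hup, map_one, sub_self]
  choose β hβ hβm using hval
  choose u hu hu1 using hμ1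
  let γ : AlgInt := ∑ h : H, if hh : h = 1 then (m : AlgInt) else β h hh * u h
  have hγ : (p : ℂ) * c = (p : ℂ) ^ e * (γ : ℂ) := by
    rw [← hc, classInner, hcardH, ← mul_assoc, mul_inv_cancel₀ hp0, one_mul]
    simp only [γ]
    push_cast
    rw [Finset.mul_sum]
    refine Finset.sum_congr rfl fun h _ => ?_
    by_cases hh : h = 1
    · subst hh
      rw [dif_pos rfl]
      push_cast
      rw [map_one_eq_one_of_isMulCommutative μ, map_one, mul_one, hD]
    · rw [dif_neg hh]
      push_cast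
      rw [hβ h hh, hu]
      ring
  have hγM : γ ∈ M := by
    have h1 : γ - ∑ _h : H, (m : AlgInt) ∈ M := by
      rw [← Finset.sum_sub_distrib]
      refine M.sum_mem fun h _ => ?_
      by_cases hh : h = 1
      · rw [dif_pos hh, sub_self]; exact M.zero_mem
      · rw [dif_neg hh, show β h hh * u h - (m : AlgInt) =
          (β h hh - (m : AlgInt)) * u h + (m : AlgInt) * (u h - 1) by ring]
        exact M.add_mem (M.mul_mem_right _ (hβm h hh)) (M.mul_mem_left _ (hu1 h))
    rw [Finset.sum_const, Finset.card_univ, ← Nat.card_eq_fintype_card, hcardH, nsmul_eq_mul] at h1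
    simpa using M.add_mem h1 (M.mul_mem_right (m : AlgInt) hM.2.2)
  -- `γ` is an integer
  have hq : (γ : ℂ) = algebraMap ℚ ℂ ((p * c : ℕ) / (p ^ e : ℕ)) := by
    rw [map_div₀, map_natCast, map_natCast, eq_div_iff (by exact_mod_cast hpe)]
    push_cast
    linear_combination -hγ
  obtain ⟨z, hz⟩ : ∃ z : ℤ, (z : ℂ) = (γ : ℂ) := by
    have h3 : IsIntegral ℤ (algebraMap ℚ ℂ ((p * c : ℕ) / (p ^ e : ℕ))) := hq ▸ γ.2
    rw [isIntegral_algebraMap_iff (algebraMap ℚ ℂ).injective] at h3
    obtain ⟨k, hk⟩ := IsIntegrallyClosed.isIntegral_iff.mp h3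
    exact ⟨k, by rw [hq, ← hk]; simp⟩
  have hzM : (p : ℤ) ∣ z := by
    have h1 : (z : AlgInt) = γ := Subtype.ext (by push_cast; exact hz)
    have h2 : (z.natAbs : AlgInt) ∈ M := by
      rcases Int.natAbs_eq z with h | h
      · rw [h, Int.cast_natCast] at h1
        rwa [h1]
      · rw [h, Int.cast_neg, Int.cast_natCast] at h1
        rw [← h1] at hγM
        exact M.neg_mem_iff.1 hγM
    exact Int.natCast_dvd.2 ((natCast_mem_iff_dvd hM _).1 h2)
  obtain ⟨z', rfl⟩ := hzM
  have hcz : ((c : ℤ) : ℂ) = (((p : ℤ) ^ e * z' : ℤ) : ℂ) := by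
    rw [← hz] at hγ
    push_cast at hγ ⊢
    refine mul_left_cancel₀ hp0 ?_
    linear_combination hγ
  rw [Int.cast_inj] at hcz
  refine Int.natCast_dvd_natCast.1 ⟨z', ?_⟩
  rw [hcz]
  push_cast
  ring

/-- A nonprincipal character of the principal block of degree prime to `q`. -/
theorem exists_mem_principalBlock {p q : ℕ} (hq : q.Prime) {M : Ideal AlgInt} (hM : IsPModular p M)
    {x : G} (hx : p ∣ orderOf x) :
    ∃ χ : IrrCharacter G, χ ∈ principalBlock M G ∧ χ ≠ oneChar G ∧
      ¬ q ∣ charDegree (χ : G → ℂ) := by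
  classical
  haveI : Fintype G := Fintype.ofFinite G
  haveI := hM.2.1
  by_contra hno
  push Not at hno
  have h0 := finsum_block_one_mul_singular hM (isPBlock_principalBlock (G := G)) hx
  rw [finsum_block_eq_sum, ← Finset.add_sum_erase _ _
    ((Set.Finite.mem_toFinset _).2 (oneChar_mem_principalBlock (G := G) (M := M))),
    oneChar_apply, oneChar_apply, one_mul] at h0
  set S := ((principalBlock M G).toFinite.toFinset).erase (oneChar G)
  have hdiv : ∀ χ ∈ S, q ∣ charDegree (χ : G → ℂ) := fun χ hχ => by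
    rw [Finset.mem_erase, Set.Finite.mem_toFinset] at hχ
    exact hno χ hχ.2 hχ.1
  obtain ⟨Mq, hMq⟩ := exists_isPModular q hq
  haveI := hMq.2.1
  let w : AlgInt := ∑ χ ∈ S, (charDegree (χ : G → ℂ) : AlgInt) *
    ⟨_, isIntegral_apply (isCharacter_coe χ) x⟩
  have hw : (1 : AlgInt) + w = 0 := by
    refine Subtype.ext (Eq.trans ?_ h0)
    simp only [w]
    push_cast
    simp only [coe_charDegree]
  refine hMq.2.1.ne_top ((Ideal.eq_top_iff_one _).2 ?_)
  rw [show (1 : AlgInt) = -w from eq_neg_of_add_eq_zero_left hw]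
  exact Mq.neg_mem (Mq.sum_mem fun χ hχ => Mq.mul_mem_right _ ((natCast_mem_iff_dvd hMq _).2 (hdiv χ hχ)))

/-- The sixth of the circle containing a point. -/
noncomputable def sextant (z : ℂ) : ℕ := ⌈(Complex.arg z + Real.pi) * 3 / Real.pi⌉₊

theorem sextant_pos (z : ℂ) : 0 < sextant z := by
  rw [sextant, Nat.ceil_pos]
  exact div_pos (mul_pos (by linarith [Complex.neg_pi_lt_arg z]) (by norm_num)) Real.pi_pos

theorem sextant_le (z : ℂ) : sextant z ≤ 6 := by
  rw [sextant, Nat.ceil_le, div_le_iff₀ Real.pi_pos]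
  push_cast
  linarith [Complex.arg_le_pi z]

theorem norm_conj_mul_sub_one_lt {u v : ℂ} (hu : ‖u‖ = 1) (hv : ‖v‖ = 1)
    (h : sextant u = sextant v) : ‖conj u * v - 1‖ < 1 := by
  set α := Complex.arg u
  set β := Complex.arg v
  have eu : u = Complex.exp (α * Complex.I) := by
    conv_lhs => rw [← Complex.norm_mul_exp_arg_mul_I u, hu, Complex.ofReal_one, one_mul]
  have ev : v = Complex.exp (β * Complex.I) := by
    conv_lhs => rw [← Complex.norm_mul_exp_arg_mul_I v, hv, Complex.ofReal_one, one_mul]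
  have e : (conj u * v).re = Real.cos (β - α) := by
    rw [eu, ev, ← Complex.exp_conj, ← Complex.exp_add, map_mul, Complex.conj_ofReal, Complex.conj_I,
      show ((α : ℂ) * -Complex.I + (β : ℂ) * Complex.I) = ((β - α : ℝ) : ℂ) * Complex.I by
        push_cast; ring, Complex.exp_ofReal_mul_I_re]
  have hb : |(α + Real.pi) * 3 / Real.pi - (β + Real.pi) * 3 / Real.pi| < 1 := by
    have hu0 : 0 < (α + Real.pi) * 3 / Real.pi :=
      div_pos (mul_pos (by linarith [Complex.neg_pi_lt_arg u]) (by norm_num)) Real.pi_pos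
    have hv0 : 0 < (β + Real.pi) * 3 / Real.pi :=
      div_pos (mul_pos (by linarith [Complex.neg_pi_lt_arg v]) (by norm_num)) Real.pi_pos
    have h1 := Nat.le_ceil ((α + Real.pi) * 3 / Real.pi)
    have h2 := Nat.ceil_lt_add_one hu0.le
    have h3 := Nat.le_ceil ((β + Real.pi) * 3 / Real.pi)
    have h4 := Nat.ceil_lt_add_one hv0.le
    have h5 : (⌈(α + Real.pi) * 3 / Real.pi⌉₊ : ℝ) = ⌈(β + Real.pi) * 3 / Real.pi⌉₊ :=
      congrArg Nat.cast h
    rw [abs_lt]
    constructor <;> linarith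
  have hb2 : |β - α| < Real.pi / 3 := by
    rw [← sub_div, abs_div, abs_of_pos Real.pi_pos, div_lt_one Real.pi_pos,
      show (α + Real.pi) * 3 - (β + Real.pi) * 3 = -((β - α) * 3) by ring, abs_neg, abs_mul] at hb
    norm_num at hb
    linarith
  have hre : 1 / 2 < (conj u * v).re := by
    rw [e, ← Real.cos_abs, ← Real.cos_pi_div_three]
    exact Real.cos_lt_cos_of_nonneg_of_le_pi_div_two (abs_nonneg _)
      (by linarith [Real.pi_pos]) hb2
  have hn : ‖conj u * v‖ = 1 := by rw [norm_mul, Complex.norm_conj, hu, hv, one_mul]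
  set z := conj u * v
  have h1 : z.re * z.re + z.im * z.im = 1 := by
    rw [← Complex.normSq_apply, Complex.normSq_eq_norm_sq, hn, one_pow]
  have h3 : ‖z - 1‖ ^ 2 < 1 := by
    rw [← Complex.normSq_eq_norm_sq, Complex.normSq_apply, Complex.sub_re, Complex.sub_im,
      Complex.one_re, Complex.one_im, sub_zero]
    nlinarith
  nlinarith [norm_nonneg (z - 1)]

/-- An irreducible representation in unitary form, with Schur's lemma. -/
theorem exists_unitaryHom_schur [Fintype G] {n : ℕ} (ρ : Representation ℂ G (Fin n → ℂ))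
    (hρ : ρ.IsIrreducible) :
    ∃ Y : G →* Matrix (Fin n) (Fin n) ℂ, UnitaryHom Y ∧ (∀ g, (Y g).trace = ρ.character g) ∧
      ∀ A, (∀ g, Commute A (Y g)) → ∃ t : ℂ, A = t • 1 := by
  set X := FrobSchur.mat ρ
  obtain ⟨B, hB, hH⟩ := CStarAlgebra.isStrictlyPositive_iff_eq_star_mul_self.mp
    (FrobSchur.herm_posDef X).isStrictlyPositive
  lift B to (Matrix (Fin n) (Fin n) ℂ)ˣ using hB
  set B' : Matrix (Fin n) (Fin n) ℂ :=
    ((B⁻¹ : (Matrix (Fin n) (Fin n) ℂ)ˣ) : Matrix (Fin n) (Fin n) ℂ) with hB'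
  let Y : G →* Matrix (Fin n) (Fin n) ℂ :=
    { toFun := fun g => (B : Matrix (Fin n) (Fin n) ℂ) * X g * B'
      map_one' := by simp [B']
      map_mul' := fun g h => by
        simp only [B', map_mul, mul_assoc, Units.inv_mul_cancel_left] }
  refine ⟨Y, ⟨fun g => ?_⟩, fun g => ?_, fun A hA => ?_⟩
  · show star ((B : Matrix (Fin n) (Fin n) ℂ) * X g * B') =
      (B : Matrix (Fin n) (Fin n) ℂ) * X g⁻¹ * B'
    have h := FrobSchur.herm_mul X g⁻¹
    rw [inv_inv, hH, ← Matrix.star_eq_conjTranspose] at h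
    have e : star B' * star (B : Matrix (Fin n) (Fin n) ℂ) = 1 := by
      rw [← star_mul, hB', Units.mul_inv, star_one]
    calc star ((B : Matrix (Fin n) (Fin n) ℂ) * X g * B')
        = star B' * (star (X g) * (star ↑B * ↑B)) * B' := by
          simp only [B', star_mul, mul_assoc, Units.mul_inv, mul_one]
      _ = star B' * star ↑B * (↑B * X g⁻¹ * B') := by
          rw [← h]; simp only [mul_assoc]
      _ = _ := by rw [e, one_mul]
  · show ((B : Matrix (Fin n) (Fin n) ℂ) * X g * B').trace = _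
    rw [hB', Matrix.trace_units_conj, FrobSchur.trace_mat]
  · obtain ⟨t, ht⟩ := FrobSchur.schur (FrobSchur.matIrr_mat ρ hρ) (A := B' * A * B.val) fun g => by
      have h := (hA g).eq
      simp only [Y, MonoidHom.coe_mk, OneHom.coe_mk] at h
      calc B' * A * B.val * X g = B' * (A * (B.val * X g * B')) * B.val := by
            simp only [B', mul_assoc, Units.inv_mul, mul_one]
        _ = B' * (B.val * X g * B' * A) * B.val := by rw [h]
        _ = X g * (B' * A * B.val) := by
            simp only [B', mul_assoc, Units.inv_mul_cancel_left]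
    refine ⟨t, ?_⟩
    calc A = B.val * (B' * A * B.val) * B' := by
          simp only [B', mul_assoc, Units.mul_inv_cancel_left, Units.mul_inv, mul_one]
      _ = t • (1 : Matrix (Fin n) (Fin n) ℂ) := by
          rw [ht, mul_smul_comm, smul_mul_assoc, mul_one, hB', Units.mul_inv]

/-- **Blichfeldt.** In a nonabelian simple group, a faithful irreducible character has more
constituents on a subgroup of prime order `p` than allows `p` to exceed a power of six. -/
theorem le_pow_six_of_supp [IsSimpleGroup G] (hncomm : ∃ a b : G, a * b ≠ b * a)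
    (χ : IrrCharacter G) (hfaith : ∀ g : G, (χ : G → ℂ) g = (χ : G → ℂ) 1 → g = 1)
    {p : ℕ} (hp : p.Prime) {x : G} (hx : orderOf x = p) {H : Subgroup G} [Fintype H]
    (hH : H = Subgroup.zpowers x) :
    p ≤ 6 ^ (Nat.card {μ : IrrCharacter H //
      classInner (fun h : H => (χ : G → ℂ) h) (μ : H → ℂ) ≠ 0} - 1) := by
  classical
  haveI : Fintype G := Fintype.ofFinite G
  haveI : IsMulCommutative H := by rw [hH]; infer_instance
  have hcardH : Nat.card H = p := by rw [hH, Nat.card_zpowers, hx]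
  haveI : Fact p.Prime := ⟨hp⟩
  obtain ⟨n, ρ, hρ, hρc⟩ := χ.2
  have hρc' : ∀ g, (χ : G → ℂ) g = ρ.character g := fun g => by rw [hρc]
  obtain ⟨Y, hY, htr, hschur⟩ := exists_unitaryHom_schur ρ hρ
  have hn : (n : ℂ) = (χ : G → ℂ) 1 := by
    rw [hρc', Representation.char_one, Module.finrank_fin_fun]
  have hn0 : 0 < n := Nat.pos_of_ne_zero fun e => map_one_ne_zero χ (by rw [← hn, e, Nat.cast_zero])
  haveI : Nonempty (Fin n) := ⟨⟨0, hn0⟩⟩
  have hinj : ∀ g : G, Y g = 1 → g = 1 := fun g hg => hfaith g (by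
    rw [hρc', hρc', ← htr, ← htr, hg, map_one])
  let S := {μ : IrrCharacter H // classInner (fun h : H => (χ : G → ℂ) h) (μ : H → ℂ) ≠ 0}
  have hproj : ∀ μ : IrrCharacter H, proj H Y μ ≠ 0 →
      classInner (fun h : H => (χ : G → ℂ) h) (μ : H → ℂ) ≠ 0 := fun μ h e => h (by
    refine proj_eq_zero_of_classInner hY (χ := (χ : G → ℂ)) (fun g => ?_) μ e
    rw [htr, hρc'])
  obtain ⟨μ₀, hμ₀⟩ : ∃ μ₀ : IrrCharacter H, proj H Y μ₀ ≠ 0 := by
    by_contra hall
    push Not at hall
    have h := sum_proj (H := H) (Y := Y)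
    rw [Finset.sum_eq_zero fun μ _ => hall μ] at h
    exact zero_ne_one h
  have hcent : ∀ a : G, a ≠ 1 → ∀ t : ℂ, Y a ≠ t • 1 := by
    intro a ha t hat
    have hz : a ∈ Subgroup.center G := Subgroup.mem_center_iff.2 fun g => by
      have h1 : g * a * g⁻¹ * a⁻¹ = 1 := hinj _ (by
        rw [map_mul, map_mul, map_mul, hat, mul_smul_comm, mul_one, smul_mul_assoc, ← map_mul,
          mul_inv_cancel, map_one, smul_mul_assoc, one_mul]
        calc t • Y a⁻¹ = Y a * Y a⁻¹ := by rw [hat, smul_mul_assoc, one_mul]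
          _ = 1 := by rw [← map_mul, mul_inv_cancel, map_one])
      rw [mul_inv_eq_one, mul_inv_eq_iff_eq_mul] at h1
      exact h1
    rcases IsSimpleGroup.eq_bot_or_eq_top_of_normal (Subgroup.center G) inferInstance with h | h
    · rw [h, Subgroup.mem_bot] at hz
      exact ha hz
    · obtain ⟨u, v, huv⟩ := hncomm
      exact huv (Subgroup.mem_center_iff.1 (h ▸ Subgroup.mem_top v) u)
  by_contra hlt
  push Not at hlt
  -- pigeonhole
  let F : H → ({μ : S // μ.1 ≠ μ₀} → Fin 6) := fun a μ =>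
    ⟨sextant (conj ((μ₀ : H → ℂ) a) * (μ.1.1 : H → ℂ) a) - 1, by
      have := sextant_le (conj ((μ₀ : H → ℂ) a) * (μ.1.1 : H → ℂ) a); omega⟩
  obtain ⟨a, b, hab, hFab⟩ : ∃ a b : H, a ≠ b ∧ F a = F b := by
    by_contra hne
    push Not at hne
    have hFi : Function.Injective F := fun a b h => by
      by_contra hc
      exact hne a b hc h
    have h1 := Nat.card_le_card_of_injective F hFi
    rw [hcardH, Nat.card_fun, Nat.card_fin] at h1
    refine absurd (h1.trans (Nat.pow_le_pow_right (by norm_num) ?_)) (not_le.2 hlt)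
    have h0 : (⟨μ₀, hproj μ₀ hμ₀⟩ : S) ∉ Set.range
        (Subtype.val : {μ : S // μ.1 ≠ μ₀} → S) := by
      rintro ⟨⟨_, h⟩, rfl⟩
      exact h rfl
    have h2 : Nat.card {μ : S // μ.1 ≠ μ₀} < Nat.card S := by
      rw [Nat.card_eq_fintype_card, Nat.card_eq_fintype_card]
      exact Fintype.card_lt_of_injective_of_notMem _ Subtype.val_injective h0
    exact Nat.le_sub_one_of_lt h2
  obtain ⟨t, ht⟩ : ∃ t : H, t = a⁻¹ * b := ⟨_, rfl⟩
  have ht1 : t ≠ 1 := fun e => hab (inv_mul_eq_one.1 (ht ▸ e))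
  have hgen : ∀ h : H, ∃ i : ℕ, t ^ i = h := fun h =>
    mem_powers_iff_mem_zpowers.2 (mem_zpowers_of_prime_card hcardH ht1)
  have hdist : ∀ μ : IrrCharacter H, (μ : H → ℂ) t = (μ₀ : H → ℂ) t → μ = μ₀ := by
    intro μ e
    refine Subtype.ext (funext fun h => ?_)
    obtain ⟨i, rfl⟩ := hgen h
    induction i with
    | zero => simp [map_one_eq_one_of_isMulCommutative]
    | succ i ih => rw [pow_succ, linear_mul, linear_mul, ih, e]
  set lam := (μ₀ : H → ℂ) t with hlam
  have hlam1 : ‖lam‖ = 1 := norm_linear μ₀ t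
  have hclose : ∀ μ : IrrCharacter H, proj H Y μ ≠ 0 → ‖(μ : H → ℂ) t - lam‖ < 1 := by
    intro μ hμ
    by_cases e : μ = μ₀
    · rw [e, sub_self, norm_zero]; exact one_pos
    have e6 := congrArg Fin.val (congrFun hFab ⟨⟨μ, hproj μ hμ⟩, e⟩)
    simp only [F] at e6
    have hs : sextant (conj ((μ₀ : H → ℂ) a) * (μ : H → ℂ) a) =
        sextant (conj ((μ₀ : H → ℂ) b) * (μ : H → ℂ) b) := by
      have := sextant_pos (conj ((μ₀ : H → ℂ) a) * (μ : H → ℂ) a)
      have := sextant_pos (conj ((μ₀ : H → ℂ) b) * (μ : H → ℂ) b)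
      omega
    have hnorm : ∀ c : H, ‖conj ((μ₀ : H → ℂ) c) * (μ : H → ℂ) c‖ = 1 := fun c => by
      rw [norm_mul, Complex.norm_conj, norm_linear, norm_linear, one_mul]
    have h1 := norm_conj_mul_sub_one_lt (hnorm a) (hnorm b) hs
    have hlt' : ‖lam * (conj (conj ((μ₀ : H → ℂ) a) * (μ : H → ℂ) a) *
        (conj ((μ₀ : H → ℂ) b) * (μ : H → ℂ) b) - 1)‖ < 1 := by
      rw [norm_mul, hlam1, one_mul]; exact h1
    convert hlt' using 2
    have hμt : (μ : H → ℂ) t = conj ((μ : H → ℂ) a) * (μ : H → ℂ) b := by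
      rw [ht, linear_mul, map_inv_eq_conj (isCharacter_coe μ)]
    have hlt2 : lam = conj ((μ₀ : H → ℂ) a) * (μ₀ : H → ℂ) b := by
      rw [hlam, ht, linear_mul, map_inv_eq_conj (isCharacter_coe μ₀)]
    rw [map_mul, Complex.conj_conj, hμt, hlt2]
    have e1 := linear_conj_mul_self μ₀ a
    have e2 := linear_conj_mul_self μ₀ b
    linear_combination (-(conj ((μ : H → ℂ) a) * (μ : H → ℂ) b) *
      (conj ((μ₀ : H → ℂ) b) * (μ₀ : H → ℂ) b)) * e1 -
      (conj ((μ : H → ℂ) a) * (μ : H → ℂ) b) * e2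
  -- the data for the arc lemma
  let P := proj H Y μ₀
  let W := ∑ μ : IrrCharacter H,
    (if μ = μ₀ then 0 else ((μ : H → ℂ) t - lam)⁻¹) • proj H Y μ
  have hdec : Y (t : G) - lam • (1 : Matrix (Fin n) (Fin n) ℂ) =
      ∑ μ : IrrCharacter H, ((μ : H → ℂ) t - lam) • proj H Y μ := by
    rw [apply_eq_sum_proj t, ← sum_proj (H := H) (Y := Y), Finset.smul_sum,
      ← Finset.sum_sub_distrib]
    simp only [← sub_smul]
  let T : Finset ℝ := insert (1 / 2)
    ((Finset.univ.filter fun μ : IrrCharacter H => proj H Y μ ≠ 0).image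
      fun (μ : IrrCharacter H) => ‖(μ : H → ℂ) t - lam‖)
  have hT : T.Nonempty := Finset.insert_nonempty _ _
  have hc1 : T.max' hT < 1 := by
    rw [Finset.max'_lt_iff]
    intro y hy
    rcases Finset.mem_insert.1 hy with rfl | hy
    · norm_num
    obtain ⟨μ, hμ, rfl⟩ := Finset.mem_image.1 hy
    exact hclose μ (Finset.mem_filter.1 hμ).2
  have hnorm : ‖Y (t : G) - lam • (1 : Matrix (Fin n) (Fin n) ℂ)‖ ≤ T.max' hT := by
    rw [hdec]
    refine norm_sum_smul_proj_le hY _ ?_ fun μ hμ => ?_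
    · exact lt_of_lt_of_le (by norm_num) (Finset.le_max' T _ (Finset.mem_insert_self _ _))
    · exact Finset.le_max' T _ (Finset.mem_insert_of_mem
        (Finset.mem_image_of_mem _ (Finset.mem_filter.2 ⟨Finset.mem_univ _, hμ⟩)))
  have hW : (Y (t : G) - lam • (1 : Matrix (Fin n) (Fin n) ℂ)) * W = 1 - P := by
    rw [hdec, Finset.sum_mul]
    simp only [W, Finset.mul_sum, smul_mul_assoc, mul_smul_comm, proj_mul_proj, smul_ite,
      smul_zero, Finset.sum_ite_eq, Finset.mem_univ, if_true]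
    rw [← sum_proj (H := H) (Y := Y), ← Finset.sum_erase_add _ _ (Finset.mem_univ μ₀),
      ← Finset.sum_erase_add _ (fun μ => proj H Y μ) (Finset.mem_univ μ₀), if_pos rfl,
      zero_smul, add_zero, add_sub_cancel_right]
    refine Finset.sum_congr rfl fun μ hμ => ?_
    rw [if_neg (Finset.ne_of_mem_erase hμ), smul_smul, inv_mul_cancel₀, one_smul]
    exact sub_ne_zero.2 fun e => Finset.ne_of_mem_erase hμ (hdist μ e)
  have harc : ∀ g : G, Commute P (Y (g * (t : G)⁻¹ * g⁻¹)) := fun g =>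
    commute_conj_of_arc hY (by rw [proj_mul_proj, if_pos rfl]) (star_proj hY μ₀) (proj_mul μ₀ t)
      (mul_proj μ₀ t) hnorm hc1 hW g
  -- so the idempotent is scalar
  let N : Subgroup G :=
    { carrier := {g | Commute P (Y g)}
      one_mem' := by show Commute P (Y 1); rw [map_one]; exact Commute.one_right P
      mul_mem' := fun {u v} hu hv => by
        show Commute P (Y (u * v)); rw [map_mul]; exact Commute.mul_right hu hv
      inv_mem' := fun {u} hu => by
        show P * Y u⁻¹ = Y u⁻¹ * P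
        calc P * Y u⁻¹ = Y u⁻¹ * (Y u * P) * Y u⁻¹ := by
              rw [← mul_assoc (Y u⁻¹), ← map_mul, inv_mul_cancel, map_one, one_mul]
          _ = Y u⁻¹ * (P * Y u) * Y u⁻¹ := by rw [(show P * Y u = Y u * P from hu)]
          _ = _ := by
              rw [mul_assoc, mul_assoc P, ← map_mul Y u, mul_inv_cancel, map_one, mul_one] }
  have hall : ∀ g : G, Commute P (Y g) := by
    have hle : Subgroup.normalClosure {(t : G)⁻¹} ≤ N :=
      (Subgroup.closure_le N).2 fun y hy => by
        obtain ⟨s, hs, hc⟩ := Group.mem_conjugatesOfSet_iff.1 hy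
        rw [Set.mem_singleton_iff.1 hs] at hc
        obtain ⟨g, rfl⟩ := isConj_iff.1 hc
        exact harc g
    have htop : Subgroup.normalClosure {(t : G)⁻¹} = ⊤ := by
      refine (IsSimpleGroup.eq_bot_or_eq_top_of_normal _ Subgroup.normalClosure_normal).resolve_left
        fun hb => ht1 (Subtype.ext ?_)
      have := Subgroup.subset_normalClosure (s := {(t : G)⁻¹}) rfl
      rw [hb] at this
      exact inv_eq_one.1 (Subgroup.mem_bot.1 this)
    exact fun g => hle (htop ▸ Subgroup.mem_top g)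
  obtain ⟨s, hs⟩ := hschur P hall
  have hs0 : s ≠ 0 := fun e => hμ₀ (by rw [show proj H Y μ₀ = P from rfl, hs, e, zero_smul])
  refine hcent (t : G) (fun e => ht1 (Subtype.ext e)) lam ?_
  have h1 := mul_proj (Y := Y) μ₀ t
  rw [show proj H Y μ₀ = P from rfl, hs, mul_smul_comm, mul_one, ← hlam, smul_smul, mul_comm,
    mul_smul] at h1
  exact smul_right_injective _ hs0 h1

/-- The theorem. -/
theorem cofactor_bound [IsSimpleGroup G] {p q a b g₀ : ℕ} (hp : p.Prime) (hq : q.Prime)
    (ha : 0 < a) (hg : Nat.card G = p ^ a * q ^ b * g₀)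
    (hne : Nat.card G ≠ p) : p < 6 ^ (g₀ - 1) := by
  classical
  haveI : Fintype G := Fintype.ofFinite G
  haveI : Fact p.Prime := ⟨hp⟩
  have hdiv : p ∣ Nat.card G := by
    rw [hg, mul_assoc]; exact (dvd_pow_self p ha.ne').mul_right _
  have hncomm : ∃ u v : G, u * v ≠ v * u := by
    by_contra hno
    push Not at hno
    obtain ⟨x, hx⟩ := exists_prime_orderOf_dvd_card' p hdiv
    have hn : (Subgroup.zpowers x).Normal := ⟨fun n hn g => by rwa [hno g n, mul_inv_cancel_right]⟩
    rcases IsSimpleGroup.eq_bot_or_eq_top_of_normal _ hn with h | h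
    · rw [Subgroup.zpowers_eq_bot] at h
      rw [h, orderOf_one] at hx
      exact hp.one_lt.ne hx
    · exact hne (by rw [← Subgroup.card_top, ← h, Nat.card_zpowers, hx])
  -- a central element of order `p` of a Sylow subgroup
  obtain ⟨P⟩ : Nonempty (Sylow p G) := inferInstance
  haveI : Nontrivial (P : Subgroup G) := by
    rw [← Finite.one_lt_card_iff_nontrivial]
    exact lt_of_lt_of_le hp.one_lt (Nat.le_of_dvd Nat.card_pos (P.dvd_card_of_dvd_card hdiv))
  haveI : Nontrivial (Subgroup.center (P : Subgroup G)) := P.isPGroup'.center_nontrivial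
  obtain ⟨j, hj⟩ := (P.isPGroup'.to_subgroup (Subgroup.center (P : Subgroup G))).exists_card_eq
  have hj0 : j ≠ 0 := fun e => by
    rw [e, pow_zero, Nat.card_eq_one_iff_unique] at hj
    exact not_subsingleton _ hj.1
  obtain ⟨z, hz⟩ := exists_prime_orderOf_dvd_card' (G := Subgroup.center (P : Subgroup G)) p
    (hj ▸ dvd_pow_self p hj0)
  set x : G := ((z : (P : Subgroup G)) : G) with hxdef
  have hx : orderOf x = p := by rw [hxdef, Subgroup.orderOf_coe, Subgroup.orderOf_coe, hz]
  have hcl : ¬ p ∣ (Subgroup.centralizer ({x} : Set G)).index := by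
    intro hd
    refine P.not_dvd_index (hd.trans (Subgroup.index_dvd_of_le fun y hy => ?_))
    rw [Subgroup.mem_centralizer_singleton_iff]
    exact congrArg Subtype.val (Subgroup.mem_center_iff.1 z.2 ⟨y, hy⟩)
  obtain ⟨M, hM⟩ := exists_isPModular p hp
  obtain ⟨χ, hχB, hχ1, hχq⟩ := exists_mem_principalBlock (G := G) hq hM (x := x) hx.symm.dvd
  obtain ⟨e, m, hpm, hdeg⟩ := Nat.exists_eq_pow_mul_and_not_dvd (charDegree_pos χ).ne' p hp.ne_one
  have hfaith : ∀ g : G, (χ : G → ℂ) g = (χ : G → ℂ) 1 → g = 1 := by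
    intro g hg
    have hmem : g ∈ charKer (χ : G → ℂ) := (mem_charKer_iff (isCharacter_coe χ)).2 hg
    rcases IsSimpleGroup.eq_bot_or_eq_top_of_normal (charKer (χ : G → ℂ)) inferInstance with h | h
    · rwa [h, Subgroup.mem_bot] at hmem
    · exfalso
      have hall : ∀ y : G, (χ : G → ℂ) y = (χ : G → ℂ) 1 := fun y =>
        map_eq_map_one_of_mem_charKer (h ▸ Subgroup.mem_top y)
      have h1 := classInner_of_ne hχ1
      simp only [classInner, oneChar_apply, map_one, mul_one, hall, Finset.sum_const,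
        Finset.card_univ, nsmul_eq_mul] at h1
      exact mul_ne_zero (inv_ne_zero natCard_ne_zero)
        (mul_ne_zero (Nat.cast_ne_zero.2 Fintype.card_ne_zero) (map_one_ne_zero χ)) h1
  haveI : Fintype (Subgroup.zpowers x) := Fintype.ofFinite _
  haveI : IsMulCommutative (Subgroup.zpowers x) := inferInstance
  have h6 := le_pow_six_of_supp hncomm χ hfaith hp hx (H := Subgroup.zpowers x) rfl
  obtain ⟨c, hc, hc'⟩ := exists_nat_coeff (isCharacter_restrict (isCharacter_coe χ)
    (Subgroup.zpowers x))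
  set S := {μ : IrrCharacter (Subgroup.zpowers x) //
    classInner (fun h : Subgroup.zpowers x => (χ : G → ℂ) h)
      (μ : Subgroup.zpowers x → ℂ) ≠ 0} with hS
  have hsupp : Nat.card S ≤ m := by
    have hsum : (∑ μ : IrrCharacter (Subgroup.zpowers x), c μ) = p ^ e * m := by
      rw [← hdeg]
      have h := congrFun hc 1
      simp only [Finset.sum_apply, Pi.smul_apply, smul_eq_mul, map_one_eq_one_of_isMulCommutative,
        mul_one, OneMemClass.coe_one] at h
      rw [← coe_charDegree, ← Nat.cast_sum, Nat.cast_inj] at h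
      exact h.symm
    have h1 : Nat.card S * p ^ e ≤ ∑ μ : IrrCharacter (Subgroup.zpowers x), c μ := by
      rw [hS, Nat.card_eq_fintype_card, Fintype.card_subtype, ← smul_eq_mul, ← Finset.sum_const]
      refine (Finset.sum_le_sum fun μ hμ => ?_).trans
        (Finset.sum_le_sum_of_subset (Finset.filter_subset _ _))
      rw [Finset.mem_filter] at hμ
      refine Nat.le_of_dvd (Nat.pos_of_ne_zero fun h0 => hμ.2 ?_)
        (pow_dvd_multiplicity hM hχB hdeg hx rfl hcl μ (hc' μ))
      rw [hc', h0, Nat.cast_zero]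
    rw [hsum, mul_comm] at h1
    exact Nat.le_of_mul_le_mul_left h1 (pow_pos hp.pos e)
  have hmg : m ∣ g₀ := by
    have h1 : m ∣ Nat.card G := (dvd_mul_left m (p ^ e)).trans (hdeg ▸ charDegree_dvd_card χ)
    rw [hg] at h1
    have hcp : m.Coprime (p ^ a) := ((hp.coprime_iff_not_dvd.2 hpm).symm).pow_right a
    have hcq : m.Coprime (q ^ b) := ((hq.coprime_iff_not_dvd.2
      fun h => hχq (hdeg ▸ h.mul_left _)).symm).pow_right b
    exact (Nat.Coprime.mul_right hcp hcq).dvd_of_dvd_mul_left h1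
  have hg0 : 0 < g₀ := Nat.pos_of_ne_zero fun h0 => by
    rw [h0, mul_zero] at hg; exact Nat.card_pos.ne' hg
  have hle : Nat.card S ≤ g₀ := hsupp.trans (Nat.le_of_dvd hg0 hmg)
  refine lt_of_le_of_ne (h6.trans (Nat.pow_le_pow_right (by norm_num) (by omega))) fun heq => ?_
  have h2 : 2 ∣ p := by
    rcases Nat.eq_zero_or_pos (g₀ - 1) with h0 | h0
    · rw [h0, pow_zero] at heq; exact absurd heq hp.ne_one
    · rw [heq]; exact dvd_trans (by norm_num) (dvd_pow_self 6 h0.ne')
  have h3 : 3 ∣ p := by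
    rcases Nat.eq_zero_or_pos (g₀ - 1) with h0 | h0
    · rw [h0, pow_zero] at heq; exact absurd heq hp.ne_one
    · rw [heq]; exact dvd_trans (by norm_num) (dvd_pow_self 6 h0.ne')
  have := (Nat.prime_dvd_prime_iff_eq Nat.prime_two hp).1 h2
  have := (Nat.prime_dvd_prime_iff_eq Nat.prime_three hp).1 h3
  omega

end CfsgLib.LinearGroup
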