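import Cfsg.Agent.Chars.LinearGroup.Abstract
import Cfsg.Agent.Chars.FrobSchur.Basic
import Cfsg.Prelude.Def_Blocks
import Mathlib.Analysis.CStarAlgebra.Matrix
import Mathlib.Analysis.Matrix.Order
import Mathlib.Analysis.SpecialFunctions.Trigonometric.Basic

/-!
# Jordan's theorem with the bound `12 ^ n` on abelian subgroups
-/

set_option autoImplicit false

namespace CfsgLib.LinearGroup

open Cfsg CfsgLib.Chars
open scoped ComplexConjugate ComplexOrder MatrixOrder Matrix.Norms.L2Operator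

variable {G : Type*} [Group G]

/-- Every representation of a finite group is equivalent to a unitary one. -/
theorem exists_unitaryHom [Fintype G] {n : ℕ} (ρ : Representation ℂ G (Fin n → ℂ)) :
    ∃ Y : G →* Matrix (Fin n) (Fin n) ℂ, UnitaryHom Y ∧ ∀ g, (Y g).trace = ρ.character g := by
  set X := FrobSchur.mat ρ
  obtain ⟨B, hB, hH⟩ := CStarAlgebra.isStrictlyPositive_iff_eq_star_mul_self.mp
    (FrobSchur.herm_posDef X).isStrictlyPositive
  lift B to (Matrix (Fin n) (Fin n) ℂ)ˣ using hB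
  set B' : Matrix (Fin n) (Fin n) ℂ := ((B⁻¹ : (Matrix (Fin n) (Fin n) ℂ)ˣ) : Matrix (Fin n) (Fin n) ℂ) with hB'
  let Y : G →* Matrix (Fin n) (Fin n) ℂ :=
    { toFun := fun g => (B : Matrix (Fin n) (Fin n) ℂ) * X g * B'
      map_one' := by simp [B']
      map_mul' := fun g h => by
        simp only [B', map_mul, mul_assoc, Units.inv_mul_cancel_left] }
  refine ⟨Y, ⟨fun g => ?_⟩, fun g => ?_⟩
  · show star ((B : Matrix (Fin n) (Fin n) ℂ) * X g * B') = (B : Matrix (Fin n) (Fin n) ℂ) * X g⁻¹ * B'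
    have h := FrobSchur.herm_mul X g⁻¹
    rw [inv_inv, hH, ← Matrix.star_eq_conjTranspose] at h
    have e : star B' * star (B : Matrix (Fin n) (Fin n) ℂ) = 1 := by
      rw [← star_mul, hB', Units.mul_inv, star_one]
    calc star ((B : Matrix (Fin n) (Fin n) ℂ) * X g * B')
        = star B' * (star (X g) * (star ↑B * ↑B)) * B' := by
          simp only [B', star_mul, mul_assoc, Units.mul_inv, mul_one]
      _ = star B' * star ↑B * (↑B * X g⁻¹ * B') := by
          rw [← h]; simp only [mul_assoc]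
      _ = _ := by rw [e, one_mul]
  · show ((B : Matrix (Fin n) (Fin n) ℂ) * X g * B').trace = _
    rw [hB', Matrix.trace_units_conj, FrobSchur.trace_mat]

theorem commute_sub_lt {c : ℝ} {z : ℂ} (hz : ‖z‖ = 1) (hc : c = Real.sqrt 3 / 2)
    (hre : c < z.re) : ‖z - (c : ℂ)‖ < 1 / 2 := by
  have h1 : z.re * z.re + z.im * z.im = 1 := by
    rw [← Complex.normSq_apply, Complex.normSq_eq_norm_sq, hz, one_pow]
  have h2 : c * c = 3 / 4 := by
    rw [hc]
    nlinarith [Real.mul_self_sqrt (show (0 : ℝ) ≤ 3 by norm_num)]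
  have hc0 : 0 < c := by rw [hc]; positivity
  have h3 : ‖z - (c : ℂ)‖ ^ 2 < 1 / 4 := by
    rw [← Complex.normSq_eq_norm_sq, Complex.normSq_apply, Complex.sub_re, Complex.sub_im,
      Complex.ofReal_re, Complex.ofReal_im, sub_zero]
    nlinarith [mul_pos hc0 (sub_pos.2 hre)]
  nlinarith [norm_nonneg (z - (c : ℂ))]

/-- The twelfth of the circle containing a point. -/
noncomputable def sector (z : ℂ) : ℕ := ⌈(Complex.arg z + Real.pi) * 6 / Real.pi⌉₊

theorem sector_pos (z : ℂ) : 0 < sector z := by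
  rw [sector, Nat.ceil_pos]
  exact div_pos (mul_pos (by linarith [Complex.neg_pi_lt_arg z]) (by norm_num)) Real.pi_pos

theorem sector_le (z : ℂ) : sector z ≤ 12 := by
  rw [sector, Nat.ceil_le, div_le_iff₀ Real.pi_pos]
  push_cast
  linarith [Complex.arg_le_pi z]

theorem re_conj_mul_gt_of_sector_eq {u v : ℂ} (hu : ‖u‖ = 1) (hv : ‖v‖ = 1)
    (h : sector u = sector v) : Real.sqrt 3 / 2 < (conj u * v).re := by
  set α := Complex.arg u
  set β := Complex.arg v
  have eu : u = Complex.exp (α * Complex.I) := by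
    conv_lhs => rw [← Complex.norm_mul_exp_arg_mul_I u, hu, Complex.ofReal_one, one_mul]
  have ev : v = Complex.exp (β * Complex.I) := by
    conv_lhs => rw [← Complex.norm_mul_exp_arg_mul_I v, hv, Complex.ofReal_one, one_mul]
  have e : (conj u * v).re = Real.cos (β - α) := by
    rw [eu, ev, ← Complex.exp_conj, ← Complex.exp_add, map_mul, Complex.conj_ofReal, Complex.conj_I,
      show ((α : ℂ) * -Complex.I + (β : ℂ) * Complex.I) = ((β - α : ℝ) : ℂ) * Complex.I by
        push_cast; ring, Complex.exp_ofReal_mul_I_re]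
  have hb : |(α + Real.pi) * 6 / Real.pi - (β + Real.pi) * 6 / Real.pi| < 1 := by
    have hu0 : 0 < (α + Real.pi) * 6 / Real.pi :=
      div_pos (mul_pos (by linarith [Complex.neg_pi_lt_arg u]) (by norm_num)) Real.pi_pos
    have hv0 : 0 < (β + Real.pi) * 6 / Real.pi :=
      div_pos (mul_pos (by linarith [Complex.neg_pi_lt_arg v]) (by norm_num)) Real.pi_pos
    have h1 := Nat.le_ceil ((α + Real.pi) * 6 / Real.pi)
    have h2 := Nat.ceil_lt_add_one hu0.le
    have h3 := Nat.le_ceil ((β + Real.pi) * 6 / Real.pi)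
    have h4 := Nat.ceil_lt_add_one hv0.le
    have h5 : (⌈(α + Real.pi) * 6 / Real.pi⌉₊ : ℝ) = ⌈(β + Real.pi) * 6 / Real.pi⌉₊ :=
      congrArg Nat.cast h
    rw [abs_lt]
    constructor <;> linarith
  have hb2 : |β - α| < Real.pi / 6 := by
    rw [← sub_div, abs_div, abs_of_pos Real.pi_pos, div_lt_one Real.pi_pos,
      show (α + Real.pi) * 6 - (β + Real.pi) * 6 = -((β - α) * 6) by ring, abs_neg, abs_mul] at hb
    norm_num at hb
    linarith
  rw [e, ← Real.cos_abs, ← Real.cos_pi_div_six]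
  exact Real.cos_lt_cos_of_nonneg_of_le_pi_div_two (abs_nonneg _)
    (by linarith [Real.pi_pos]) hb2

variable {n : ℕ}

theorem proj_eq_zero_of_classInner {Y : G →* Matrix (Fin n) (Fin n) ℂ} (hY : UnitaryHom Y)
    {χ : G → ℂ} (htr : ∀ g, (Y g).trace = χ g) {H : Subgroup G} [Fintype H] [IsMulCommutative H]
    (μ : IrrCharacter H) (h : classInner (fun x : H => χ x) (μ : H → ℂ) = 0) :
    proj H Y μ = 0 := by
  classical
  rw [← Matrix.trace_conjTranspose_mul_self_eq_zero_iff, ← Matrix.star_eq_conjTranspose,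
    star_proj hY, proj_mul_proj, if_pos rfl, proj_def, Matrix.trace_smul, Matrix.trace_sum]
  rw [classInner] at h
  rw [smul_eq_mul, ← h]
  congr 1
  exact Finset.sum_congr rfl fun x _ => by rw [Matrix.trace_smul, htr, smul_eq_mul, mul_comm]

theorem card_supp_le [Finite G] {χ : G → ℂ} (hχ : IsCharacter G χ) (hn : χ 1 = n) (H : Subgroup G)
    [Fintype H] [IsMulCommutative H] :
    Nat.card {μ : IrrCharacter H // classInner (fun x : H => χ x) (μ : H → ℂ) ≠ 0} ≤ n := by
  classical
  obtain ⟨c, hc, hc'⟩ := exists_nat_coeff (isCharacter_restrict hχ H)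
  have h1 : (n : ℂ) = ∑ μ : IrrCharacter H, (c μ : ℂ) := by
    have h := congrFun hc 1
    simp only [Finset.sum_apply, Pi.smul_apply, smul_eq_mul, map_one_eq_one_of_isMulCommutative,
      mul_one] at h
    rw [← h, ← hn]
    rfl
  rw [← Nat.cast_sum, Nat.cast_inj] at h1
  rw [Nat.card_eq_fintype_card, Fintype.card_subtype, h1, Finset.card_eq_sum_ones]
  refine (Finset.sum_le_sum fun μ hμ => ?_).trans
    (Finset.sum_le_sum_of_subset (Finset.filter_subset _ _))
  rw [Finset.mem_filter] at hμ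
  rw [Nat.one_le_iff_ne_zero]
  intro e
  exact hμ.2 ((hc' μ).trans (by rw [e, Nat.cast_zero]))

/-- Jordan's theorem with the bound `12 ^ n`. -/
theorem exists_abelian_normal [Finite G] {χ : G → ℂ} (hχ : IsCharacter G χ)
    (hfaith : ∀ g : G, χ g = χ 1 → g = 1) (hn : χ 1 = n) :
    ∃ A : Subgroup G, A.Normal ∧ (∀ x ∈ A, ∀ y ∈ A, x * y = y * x) ∧
      ∀ H : Subgroup G, (∀ x ∈ H, ∀ y ∈ H, x * y = y * x) →
        (A.subgroupOf H).index ≤ 12 ^ n := by
  classical
  haveI : Fintype G := Fintype.ofFinite G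
  obtain ⟨m, ρ, rfl⟩ := hχ
  have hm : m = n := by
    rw [Representation.char_one, Module.finrank_fin_fun, Nat.cast_inj] at hn
    exact hn
  subst hm
  obtain ⟨Y, hY, htr⟩ := exists_unitaryHom ρ
  rcases Nat.eq_zero_or_pos m with rfl | hmpos
  · have hG : ∀ g : G, g = 1 := fun g => hfaith g (by
      rw [← htr, ← htr, Subsingleton.elim (Y g) (Y 1)])
    refine ⟨⊤, inferInstance, fun x _ y _ => by rw [hG x, hG y], fun H _ => ?_⟩
    rw [show (⊤ : Subgroup G).subgroupOf H = ⊤ from Subgroup.top_subgroupOf H, Subgroup.index_top]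
    exact Nat.one_le_pow _ _ (by norm_num)
  haveI : Nonempty (Fin m) := ⟨⟨0, hmpos⟩⟩
  have hinj : Function.Injective Y := by
    refine (injective_iff_map_eq_one Y).2 fun g hg => hfaith g ?_
    rw [← htr, ← htr, hg, map_one]
  set c : ℝ := Real.sqrt 3 / 2 with hc
  let T : Set G := {g | ‖Y g - (c : ℂ) • 1‖ < 1 / 2}
  have hTconj : ∀ g ∈ T, ∀ x : G, x * g * x⁻¹ ∈ T := by
    intro g hg x
    show ‖Y (x * g * x⁻¹) - (c : ℂ) • 1‖ < 1 / 2
    have e : Y (x * g * x⁻¹) - (c : ℂ) • 1 = Y x * (Y g - (c : ℂ) • 1) * Y x⁻¹ := by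
      simp only [map_mul, mul_sub, sub_mul, mul_smul_comm, smul_mul_assoc, mul_one]
      rw [← map_mul Y x x⁻¹, mul_inv_cancel, map_one]
    rw [e, hY.norm_conj]
    exact hg
  have hTcomm : ∀ a ∈ T, ∀ b ∈ T, Commute a b := by
    intro a ha b hb
    refine hY.commute_of_near hinj ha ?_
    have h1 : ‖(c : ℂ) • (1 : Matrix (Fin m) (Fin m) ℂ) - 1‖ = |c - 1| := by
      rw [show (c : ℂ) • (1 : Matrix (Fin m) (Fin m) ℂ) - 1 =
          ((c - 1 : ℝ) : ℂ) • 1 by rw [Complex.ofReal_sub, sub_smul, Complex.ofReal_one, one_smul],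
        norm_smul, CStarRing.norm_one, mul_one, Complex.norm_real, Real.norm_eq_abs]
    have hc1 : 1 / 2 < c ∧ c < 3 / 2 := by
      have h2 := Real.mul_self_sqrt (show (0 : ℝ) ≤ 3 by norm_num)
      have h3 := Real.sqrt_nonneg (3 : ℝ)
      constructor <;> rw [hc] <;> nlinarith
    have h4 : |c - 1| < 1 / 2 := abs_lt.2 ⟨by linarith [hc1.1], by linarith [hc1.2]⟩
    calc ‖Y b - 1‖ = ‖(Y b - (c : ℂ) • 1) + ((c : ℂ) • 1 - 1)‖ := by rw [sub_add_sub_cancel]
      _ ≤ ‖Y b - (c : ℂ) • 1‖ + |c - 1| := h1 ▸ norm_add_le _ _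
      _ < 1 := by
        have : ‖Y b - (c : ℂ) • 1‖ < 1 / 2 := hb
        linarith
  refine ⟨Subgroup.closure T, ⟨fun g hg x => ?_⟩, ?_, ?_⟩
  · refine Subgroup.closure_induction (p := fun g _ => x * g * x⁻¹ ∈ Subgroup.closure T)
      (fun g hg => Subgroup.subset_closure (hTconj g hg x)) (by simp) (fun a b _ _ ha hb => ?_)
      (fun a _ ha => ?_) hg
    · rw [show x * (a * b) * x⁻¹ = x * a * x⁻¹ * (x * b * x⁻¹) by group]
      exact mul_mem ha hb
    · rw [show x * a⁻¹ * x⁻¹ = (x * a * x⁻¹)⁻¹ by group]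
      exact inv_mem ha
  · have h1 : Subgroup.closure T ≤ Subgroup.centralizer T := by
      rw [Subgroup.closure_le]
      intro a ha
      exact Subgroup.mem_centralizer_iff.2 fun b hb => hTcomm b hb a ha
    have h2 : Subgroup.closure T ≤ Subgroup.centralizer (Subgroup.closure T : Set G) := by
      rw [Subgroup.closure_le]
      intro a ha
      refine Subgroup.mem_centralizer_iff.2 fun b hb => ?_
      exact (Subgroup.mem_centralizer_iff.1 (h1 hb) a ha).symm
    exact fun x hx y hy => (Subgroup.mem_centralizer_iff.1 (h2 hy) x hx)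
  · intro H hH
    haveI : IsMulCommutative H := ⟨⟨fun a b => Subtype.ext (hH a a.2 b b.2)⟩⟩
    set S := {μ : IrrCharacter H // classInner (fun x : H => ρ.character x) (μ : H → ℂ) ≠ 0}
    let F : H → (S → Fin 12) := fun a μ =>
      ⟨sector ((μ.1 : H → ℂ) a) - 1, by have := sector_le ((μ.1 : H → ℂ) a); omega⟩
    have hFF : ∀ a b : H, F a = F b → a⁻¹ * b ∈ (Subgroup.closure T).subgroupOf H := by
      intro a b hab
      refine Subgroup.mem_subgroupOf.2 (Subgroup.subset_closure ?_)
      show ‖Y ((a⁻¹ * b : H) : G) - (c : ℂ) • 1‖ < 1 / 2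
      rw [apply_eq_sum_proj, ← sum_proj (H := H) (Y := Y), Finset.smul_sum,
        ← Finset.sum_sub_distrib]
      simp only [← sub_smul]
      set P := Finset.univ.filter fun μ : IrrCharacter H => proj H Y μ ≠ 0
      set z : IrrCharacter H → ℂ := fun μ => (μ : H → ℂ) (a⁻¹ * b) - (c : ℂ)
      let V : Finset ℝ := insert (1 / 4) (P.image fun μ => ‖z μ‖)
      have hV : V.Nonempty := Finset.insert_nonempty _ _
      have hM : V.max' hV < 1 / 2 := by
        rw [Finset.max'_lt_iff]
        intro y hy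
        rcases Finset.mem_insert.1 hy with rfl | hy
        · norm_num
        obtain ⟨μ, hμ, rfl⟩ := Finset.mem_image.1 hy
        have hμS : classInner (fun x : H => ρ.character x) (μ : H → ℂ) ≠ 0 := fun e =>
          (Finset.mem_filter.1 hμ).2 (proj_eq_zero_of_classInner hY htr μ e)
        have e := congrArg Fin.val (congrFun hab ⟨μ, hμS⟩)
        simp only [F] at e
        have hs : sector ((μ : H → ℂ) a) = sector ((μ : H → ℂ) b) := by
          have := sector_pos ((μ : H → ℂ) a)
          have := sector_pos ((μ : H → ℂ) b)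
          omega
        refine commute_sub_lt (norm_linear μ _) hc ?_
        rw [linear_mul, map_inv_eq_conj (isCharacter_coe μ)]
        exact re_conj_mul_gt_of_sector_eq (norm_linear μ _) (norm_linear μ _) hs
      refine lt_of_le_of_lt (norm_sum_smul_proj_le hY z ?_ fun μ hμ => ?_) hM
      · exact lt_of_lt_of_le (by norm_num) (Finset.le_max' V _ (Finset.mem_insert_self _ _))
      · exact Finset.le_max' V _ (Finset.mem_insert_of_mem
          (Finset.mem_image_of_mem _ (Finset.mem_filter.2 ⟨Finset.mem_univ _, hμ⟩)))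
    have hinjF : Function.Injective
        (fun q : H ⧸ (Subgroup.closure T).subgroupOf H => F q.out) := fun p q h => by
      rw [← QuotientGroup.out_eq' p, ← QuotientGroup.out_eq' q]
      exact QuotientGroup.eq.2 (hFF _ _ h)
    rw [Subgroup.index_eq_card]
    calc Nat.card (H ⧸ (Subgroup.closure T).subgroupOf H) ≤ Nat.card (S → Fin 12) :=
          Nat.card_le_card_of_injective _ hinjF
      _ = 12 ^ Nat.card S := by rw [Nat.card_fun, Nat.card_fin]
      _ ≤ 12 ^ m := Nat.pow_le_pow_right (by norm_num)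
          (card_supp_le ⟨m, ρ, rfl⟩ hn H)

end CfsgLib.LinearGroup
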